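import Cfsg.Agent.Block.Theta

/-! Conway's characterisation of the Leech lattice: short vectors in the classes mod `2L`. -/

namespace Cfsg.Agent.Block.Conway

open Matrix Finset Theta

/-- the hypotheses -/
structure Hy (B : Matrix (Fin 24) (Fin 24) ℤ) : Prop where
  symm : B.IsSymm
  pos : ∀ x : Fin 24 → ℤ, x ≠ 0 → 0 < x ⬝ᵥ (B *ᵥ x)
  even : ∀ x : Fin 24 → ℤ, (2 : ℤ) ∣ x ⬝ᵥ (B *ᵥ x)
  h2 : ∀ x : Fin 24 → ℤ, x ⬝ᵥ (B *ᵥ x) ≠ 2
  h4 : {x : Fin 24 → ℤ | x ⬝ᵥ (B *ᵥ x) = 4}.ncard = 196560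
  h6 : {x : Fin 24 → ℤ | x ⬝ᵥ (B *ᵥ x) = 6}.ncard = 16773120
  h8 : {x : Fin 24 → ℤ | x ⬝ᵥ (B *ᵥ x) = 8}.ncard = 398034000

variable {B : Matrix (Fin 24) (Fin 24) ℤ}

theorem Hy.comm (h : Hy B) (x y : Fin 24 → ℤ) : x ⬝ᵥ (B *ᵥ y) = y ⬝ᵥ (B *ᵥ x) := by
  rw [dotProduct_mulVec, dotProduct_comm, ← mulVec_transpose, h.symm.eq]

theorem Hy.min (h : Hy B) (x : Fin 24 → ℤ) (hx : x ≠ 0) : 4 ≤ x ⬝ᵥ (B *ᵥ x) := by
  have := h.pos x hx
  have := h.even x
  have := h.h2 x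
  omega

theorem Hy.nonneg (h : Hy B) (x : Fin 24 → ℤ) : 0 ≤ x ⬝ᵥ (B *ᵥ x) := by
  by_cases hx : x = 0
  · simp [hx]
  · exact (h.pos x hx).le

/-- reduction mod 2 -/
def rd (x : Fin 24 → ℤ) : Fin 24 → ZMod 2 := fun i => (x i : ZMod 2)

theorem rd_eq_iff (x y : Fin 24 → ℤ) : rd x = rd y ↔ ∃ z : Fin 24 → ℤ, y = x + (2 : ℤ) • z := by
  constructor
  · intro h
    have : ∀ i, ∃ z : ℤ, y i = x i + 2 * z := fun i => by
      have h1 := (ZMod.intCast_eq_intCast_iff_dvd_sub (x i) (y i) 2).1 (congrFun h i)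
      obtain ⟨z, hz⟩ := h1
      exact ⟨z, by push_cast at hz; omega⟩
    choose z hz using this
    exact ⟨z, funext fun i => by simp [hz i]⟩
  · rintro ⟨z, rfl⟩
    funext i
    simp only [rd, Pi.add_apply, Pi.smul_apply, smul_eq_mul]
    push_cast
    rw [show (2 : ZMod 2) = 0 from rfl]
    simp

theorem rd_neg (x : Fin 24 → ℤ) : rd (-x) = rd x :=
  (rd_eq_iff _ _).2 ⟨x, by funext i; simp; ring⟩

theorem Hy.pair (h : Hy B) {x y : Fin 24 → ℤ} (hxy : rd x = rd y) (hx : x ⬝ᵥ (B *ᵥ x) ≤ 8)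
    (hy : y ⬝ᵥ (B *ᵥ y) ≤ 8) (h1 : y ≠ x) (h2 : y ≠ -x) :
    x ⬝ᵥ (B *ᵥ x) = 8 ∧ y ⬝ᵥ (B *ᵥ y) = 8 ∧ x ⬝ᵥ (B *ᵥ y) = 0 := by
  obtain ⟨z, rfl⟩ := (rd_eq_iff _ _).1 hxy
  have hz : z ≠ 0 := by rintro rfl; simp at h1
  have hz' : x + z ≠ 0 := by
    intro h0
    apply h2
    have : z = -x := by rw [← add_eq_zero_iff_eq_neg, add_comm, h0]
    rw [this]; funext i; simp; ring
  have e1 := h.min z hz
  have e2 := h.min _ hz'
  have e3 := h.comm x z
  simp only [mulVec_add, mulVec_smul, add_dotProduct, dotProduct_add, smul_dotProduct,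
    dotProduct_smul, smul_eq_mul] at *
  omega

theorem Hy.half (h : Hy B) (T : Finset (Fin 24 → ℤ)) (hneg : ∀ x ∈ T, -x ∈ T)
    (h8 : ∀ x ∈ T, x ⬝ᵥ (B *ᵥ x) = 8) (hrd : ∀ x ∈ T, ∀ y ∈ T, rd x = rd y) :
    ∃ U ⊆ T, T.card = 2 * U.card ∧ U.card ≤ 24 ∧
      ∀ x ∈ U, ∀ y ∈ U, x ≠ y → x ⬝ᵥ (B *ᵥ y) = 0 := by
  classical
  have hne : ∀ x ∈ T, toLex x ≠ toLex (-x) := by
    intro x hx he
    have h1 : x = -x := toLex.injective he
    have h2 : x = 0 := by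
      funext i
      have := congrFun h1 i
      simp only [Pi.neg_apply] at this
      simp only [Pi.zero_apply]
      omega
    have := h8 x hx
    simp [h2] at this
  have horth : ∀ x ∈ T.filter (fun x => toLex x < toLex (-x)),
      ∀ y ∈ T.filter (fun x => toLex x < toLex (-x)), x ≠ y → x ⬝ᵥ (B *ᵥ y) = 0 := by
    intro x hx y hy hxy
    rw [mem_filter] at hx hy
    refine (h.pair (hrd x hx.1 y hy.1) (h8 x hx.1).le (h8 y hy.1).le hxy.symm ?_).2.2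
    rintro rfl
    rw [neg_neg] at hy
    exact lt_asymm hx.2 hy.2
  refine ⟨T.filter (fun x => toLex x < toLex (-x)), filter_subset _ _, ?_, ?_, horth⟩
  · rw [← card_filter_add_card_filter_not (s := T) (fun x => toLex x < toLex (-x)), two_mul]
    congr 1
    refine card_nbij' (fun x => -x) (fun x => -x) ?_ ?_ (fun x _ => neg_neg x) (fun x _ => neg_neg x)
    · intro x hx
      simp only [coe_filter, Set.mem_ofPred_eq, neg_neg] at hx ⊢
      exact ⟨hneg x hx.1, lt_of_le_of_ne (not_lt.1 hx.2) (hne x hx.1).symm⟩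
    · intro x hx
      simp only [coe_filter, Set.mem_ofPred_eq, neg_neg] at hx ⊢
      exact ⟨hneg x hx.1, lt_asymm hx.2⟩
  · set U := T.filter (fun x => toLex x < toLex (-x))
    have hli : LinearIndependent ℤ (fun x : U => (x : Fin 24 → ℤ)) := by
      rw [Fintype.linearIndependent_iff]
      intro g hg y
      have h1 := congrArg (fun v => v ⬝ᵥ (B *ᵥ (y : Fin 24 → ℤ))) hg
      simp only [sum_dotProduct, smul_dotProduct, zero_dotProduct, smul_eq_mul] at h1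
      rw [sum_eq_single y] at h1
      · rw [h8 _ (mem_filter.1 y.2).1] at h1
        omega
      · intro x _ hxy
        rw [horth x x.2 y y.2 (fun e => hxy (Subtype.ext e)), mul_zero]
      · simp
    simpa using hli.fintype_card_le_finrank

/-- the weight of a short vector -/
def wt (B : Matrix (Fin 24) (Fin 24) ℤ) (x : Fin 24 → ℤ) : ℕ :=
  (if x ⬝ᵥ (B *ᵥ x) = 0 then 48 else 0) + (if x ⬝ᵥ (B *ᵥ x) = 4 then 24 else 0) +
    (if x ⬝ᵥ (B *ᵥ x) = 6 then 24 else 0) + (if x ⬝ᵥ (B *ᵥ x) = 8 then 1 else 0)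

theorem Hy.zero_iff (h : Hy B) (x : Fin 24 → ℤ) : x ⬝ᵥ (B *ᵥ x) = 0 ↔ x = 0 := by
  constructor
  · intro h0
    by_contra hx
    have := h.pos x hx
    omega
  · rintro rfl; simp

theorem Hy.finite (h : Hy B) : {x : Fin 24 → ℤ | x ⬝ᵥ (B *ᵥ x) ≤ 8}.Finite := by
  have f4 := Set.finite_of_ncard_ne_zero (ne_of_eq_of_ne h.h4 (by norm_num))
  have f6 := Set.finite_of_ncard_ne_zero (ne_of_eq_of_ne h.h6 (by norm_num))
  have f8 := Set.finite_of_ncard_ne_zero (ne_of_eq_of_ne h.h8 (by norm_num))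
  refine ((((Set.finite_singleton 0).union f4).union f6).union f8).subset fun x hx => ?_
  simp only [Set.mem_union, Set.mem_singleton_iff, Set.mem_ofPred_eq, ← h.zero_iff] at hx ⊢
  have := h.nonneg x
  have := h.even x
  have := h.h2 x
  omega

theorem Hy.total (h : Hy B) : ∑ x ∈ h.finite.toFinset, wt B x = 2 ^ 24 * 48 := by
  classical
  have key : ∀ k : ℤ, k ≤ 8 → (h.finite.toFinset.filter fun x => x ⬝ᵥ (B *ᵥ x) = k).card
      = {x : Fin 24 → ℤ | x ⬝ᵥ (B *ᵥ x) = k}.ncard := by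
    intro k hk
    rw [← Set.ncard_coe_finset]
    congr 1
    ext x
    simp only [coe_filter, Set.Finite.mem_toFinset, Set.mem_ofPred_eq]
    omega
  have h0 : {x : Fin 24 → ℤ | x ⬝ᵥ (B *ᵥ x) = 0}.ncard = 1 := by
    simp [h.zero_iff]
  simp only [wt, sum_add_distrib, ← sum_filter, sum_const, smul_eq_mul]
  rw [key 0 (by norm_num), key 4 (by norm_num), key 6 (by norm_num), key 8 (by norm_num), h0,
    h.h4, h.h6, h.h8]
  norm_num

theorem norm_neg' (x : Fin 24 → ℤ) : (-x) ⬝ᵥ (B *ᵥ (-x)) = x ⬝ᵥ (B *ᵥ x) := by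
  simp [mulVec_neg]

theorem Hy.fib_le (h : Hy B) (c : Fin 24 → ZMod 2) :
    ∑ x ∈ h.finite.toFinset.filter (fun x => rd x = c), wt B x ≤ 48 := by
  classical
  set T := h.finite.toFinset.filter (fun x => rd x = c) with hT
  have hm : ∀ x, x ∈ T ↔ x ⬝ᵥ (B *ᵥ x) ≤ 8 ∧ rd x = c := by simp [hT]
  by_cases h8 : ∀ x ∈ T, x ⬝ᵥ (B *ᵥ x) = 8
  · obtain ⟨U, -, h1, h2, -⟩ := h.half T
      (fun x hx => (hm _).2 ⟨by rw [norm_neg']; exact ((hm _).1 hx).1,
        by rw [rd_neg]; exact ((hm _).1 hx).2⟩) h8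
      (fun x hx y hy => ((hm _).1 hx).2.trans ((hm _).1 hy).2.symm)
    rw [sum_congr rfl (g := fun _ => 1) (fun x hx => by simp [wt, h8 x hx])]
    simp only [sum_const, smul_eq_mul]
    omega
  · push Not at h8
    obtain ⟨x, hx, hx8⟩ := h8
    have hsub : T ⊆ {x, -x} := by
      intro y hy
      by_contra hc
      simp only [mem_insert, mem_singleton, not_or] at hc
      exact hx8 (h.pair (((hm _).1 hx).2.trans ((hm _).1 hy).2.symm) ((hm _).1 hx).1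
        ((hm _).1 hy).1 hc.1 hc.2).1
    refine (sum_le_sum_of_subset hsub).trans ?_
    by_cases h0 : x = 0
    · subst h0; simp [wt]
    · have h1 : wt B x ≤ 24 := by
        have := (h.zero_iff x).not.2 h0
        unfold wt
        split_ifs <;> omega
      have h2 : wt B (-x) = wt B x := by simp only [wt, norm_neg']
      refine (sum_le_card_nsmul _ _ 24 ?_).trans ?_
      · intro y hy
        simp only [mem_insert, mem_singleton] at hy
        rcases hy with rfl | rfl <;> omega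
      · have := card_le_two (a := x) (b := -x)
        simp only [smul_eq_mul]
        omega

theorem Hy.fib_eq (h : Hy B) (c : Fin 24 → ZMod 2) :
    ∑ x ∈ h.finite.toFinset.filter (fun x => rd x = c), wt B x = 48 := by
  classical
  have h1 := sum_fiberwise h.finite.toFinset rd (wt B)
  have h2 : ∑ _c : Fin 24 → ZMod 2, 48 = 2 ^ 24 * 48 := by
    rw [sum_const, card_univ, Fintype.card_fun, ZMod.card, Fintype.card_fin, smul_eq_mul]
  rw [h.total, ← h2] at h1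
  exact (sum_eq_sum_iff_of_le (fun c _ => h.fib_le c)).1 h1 c (mem_univ _)

theorem Hy.short (h : Hy B) (x : Fin 24 → ℤ) :
    ∃ z : Fin 24 → ℤ, (x + (2 : ℤ) • z) ⬝ᵥ (B *ᵥ (x + (2 : ℤ) • z)) ≤ 8 := by
  classical
  have h1 := h.fib_eq (rd x)
  obtain ⟨y, hy⟩ := nonempty_of_sum_ne_zero (ne_of_eq_of_ne h1 (by norm_num))
  simp only [mem_filter, Set.Finite.mem_toFinset, Set.mem_ofPred_eq] at hy
  obtain ⟨z, rfl⟩ := (rd_eq_iff _ _).1 hy.2.symm
  exact ⟨z, hy.1⟩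

theorem Hy.frame (h : Hy B) (x : Fin 24 → ℤ) (hx : x ⬝ᵥ (B *ᵥ x) = 8) :
    ∃ M : Matrix (Fin 24) (Fin 24) ℤ, Dg B M (fun _ => 8) ∧ ∀ j, rd (fun a => M a j) = rd x := by
  classical
  have h1 := h.fib_eq (rd x)
  set T := h.finite.toFinset.filter (fun y => rd y = rd x) with hT
  have hm : ∀ y, y ∈ T ↔ y ⬝ᵥ (B *ᵥ y) ≤ 8 ∧ rd y = rd x := by simp [hT]
  have h8 : ∀ y ∈ T, y ⬝ᵥ (B *ᵥ y) = 8 := by
    intro y hy
    by_cases e1 : y = x
    · rw [e1, hx]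
    by_cases e2 : y = -x
    · rw [e2, norm_neg', hx]
    exact (h.pair ((hm _).1 hy).2.symm hx.le ((hm _).1 hy).1 e1 e2).2.1
  obtain ⟨U, hU, h2, -, h3⟩ := h.half T
    (fun x hx => (hm _).2 ⟨by rw [norm_neg']; exact ((hm _).1 hx).1,
      by rw [rd_neg]; exact ((hm _).1 hx).2⟩) h8
    (fun x hx y hy => ((hm _).1 hx).2.trans ((hm _).1 hy).2.symm)
  rw [sum_congr rfl (g := fun _ => 1) (fun x hx => by simp [wt, h8 x hx])] at h1
  simp only [sum_const, smul_eq_mul] at h1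
  have h4 : U.card = 24 := by omega
  let e := (U.equivFinOfCardEq h4).symm
  refine ⟨Matrix.of fun a j => (e j : Fin 24 → ℤ) a, ⟨h.symm, fun _ => by norm_num, ?_⟩,
    fun j => ((hm _).1 (hU (e j).2)).2⟩
  ext i j
  have : ((Matrix.of fun a j => (e j : Fin 24 → ℤ) a)ᵀ * B *
      (Matrix.of fun a j => (e j : Fin 24 → ℤ) a)) i j
      = (e i : Fin 24 → ℤ) ⬝ᵥ (B *ᵥ (e j : Fin 24 → ℤ)) := by
    simp only [Matrix.mul_apply, transpose_apply, of_apply, dotProduct, mulVec, sum_mul,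
      mul_sum, mul_assoc]
    rw [sum_comm]
  rw [this]
  by_cases hij : i = j
  · subst hij
    rw [diagonal_apply_eq, h8 _ (hU (e i).2)]
  · rw [diagonal_apply_ne _ hij]
    exact h3 _ (e i).2 _ (e j).2 fun he => hij (e.injective (Subtype.ext he))

theorem Hy.key (h : Hy B) (x p : Fin 24 → ℤ) (hp : p ≠ 0) :
    ∃ z : Fin 24 → ℤ, (x + (2 : ℤ) • z) ⬝ᵥ (B *ᵥ (x + (2 : ℤ) • z)) ≤ 6 ∨
      ((x + (2 : ℤ) • z) ⬝ᵥ (B *ᵥ (x + (2 : ℤ) • z)) = 8 ∧ p ⬝ᵥ (B *ᵥ (x + (2 : ℤ) • z)) ≠ 0) := by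
  obtain ⟨z, hz⟩ := h.short x
  by_cases h6 : (x + (2 : ℤ) • z) ⬝ᵥ (B *ᵥ (x + (2 : ℤ) • z)) ≤ 6
  · exact ⟨z, Or.inl h6⟩
  have h8 : (x + (2 : ℤ) • z) ⬝ᵥ (B *ᵥ (x + (2 : ℤ) • z)) = 8 := by
    have := h.even (x + (2 : ℤ) • z)
    omega
  obtain ⟨M, hM, hr⟩ := h.frame _ h8
  have h1 : ∃ j, co B M p j ≠ 0 := by
    by_contra hc
    push Not at hc
    apply hp
    apply hM.co_inj
    funext j
    rw [hc j]
    simp [co]
  obtain ⟨j, hj⟩ := h1
  have h2 : rd x = rd (fun a => M a j) := ((rd_eq_iff _ _).2 ⟨z, rfl⟩).trans (hr j).symm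
  obtain ⟨z', hz'⟩ := (rd_eq_iff _ _).1 h2
  refine ⟨z', Or.inr ?_⟩
  rw [← hz']
  constructor
  · have := congrFun (congrFun hM.eq j) j
    rw [diagonal_apply_eq] at this
    rw [← this]
    simp only [Matrix.mul_apply, transpose_apply, dotProduct, mulVec, sum_mul,
      mul_sum, mul_assoc]
    rw [sum_comm]
  · rw [hM.co_eq] at hj
    rwa [dotProduct_mulVec]

end Cfsg.Agent.Block.Conway
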