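import Cfsg.Agent.Block.Conway
import Cfsg.Agent.Leech.Index
import Cfsg.Agent.Golay.Codes

/-! Conway's characterisation of the Leech lattice: coordinates from a frame. -/

namespace Cfsg.Agent.Block.Conway

open Matrix Finset Theta

/-- a coordinate frame -/
structure Fr (B M : Matrix (Fin 24) (Fin 24) ℤ) : Prop where
  hy : Hy B
  dg : Dg B M (fun _ => 8)
  cong : ∃ (x : Fin 24 → ℤ) (T : Matrix (Fin 24) (Fin 24) ℤ), ∀ a j, M a j = x a + 2 * T a j

variable {B M : Matrix (Fin 24) (Fin 24) ℤ}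

theorem Hy.exists_fr (h : Hy B) : ∃ M, Fr B M := by
  obtain ⟨x, hx⟩ := Set.nonempty_of_ncard_ne_zero (ne_of_eq_of_ne h.h8 (by norm_num))
  obtain ⟨M, hM, hr⟩ := h.frame x hx
  choose z hz using fun j => (rd_eq_iff _ _).1 (hr j).symm
  exact ⟨M, h, hM, x, Matrix.of fun a j => z j a, fun a j => by simpa using congrFun (hz j) a⟩

theorem Fr.sign (h : Fr B M) (ε : Fin 24 → ℤ) (hε : ∀ i, ε i = 1 ∨ ε i = -1) :
    Fr B (M * diagonal ε) ∧ ∀ x i, co B (M * diagonal ε) x i = ε i * co B M x i := by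
  obtain ⟨x, T, hT⟩ := h.cong
  refine ⟨⟨h.hy, ⟨h.hy.symm, fun _ => by norm_num, ?_⟩, x,
    Matrix.of fun a j => if ε j = 1 then T a j else -T a j - x a, fun a j => ?_⟩, fun x i => ?_⟩
  · rw [transpose_mul, diagonal_transpose, Matrix.mul_assoc (diagonal ε), Matrix.mul_assoc,
      ← Matrix.mul_assoc _ M, h.dg.eq, diagonal_mul_diagonal, diagonal_mul_diagonal]
    congr 1
    funext i
    rcases hε i with e | e <;> simp [e]
  · rw [mul_diagonal, of_apply, hT]
    rcases hε j with e | e <;> simp [e]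
    ring
  · rw [co, co, transpose_mul, diagonal_transpose, Matrix.mul_assoc, ← mulVec_mulVec,
      mulVec_diagonal]

theorem co_smul (k : ℤ) (x : Fin 24 → ℤ) (i : Fin 24) : co B M (k • x) i = k * co B M x i := by
  rw [co, co, mulVec_smul, Pi.smul_apply, smul_eq_mul]

theorem co_sub (x y : Fin 24 → ℤ) (i : Fin 24) : co B M (x - y) i = co B M x i - co B M y i := by
  simp [co, mulVec_sub]

theorem co_two (x z : Fin 24 → ℤ) (i : Fin 24) :
    co B M (x + (2 : ℤ) • z) i = co B M x i + 2 * co B M z i := by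
  rw [co_add, Pi.add_apply, co_smul]

theorem Fr.four (h : Fr B M) (z : Fin 24 → ℤ) (hz : (2 : ℤ) ∣ ∑ i, z i) :
    ∃ u, ∀ i, co B M u i = 4 * z i := by
  obtain ⟨x, T, hT⟩ := h.cong
  obtain ⟨k, hk⟩ := hz
  refine ⟨k • x + T *ᵥ z, fun i => ?_⟩
  have h1 : M *ᵥ z = (2 : ℤ) • (k • x + T *ᵥ z) := by
    funext a
    simp only [mulVec, dotProduct, hT, Pi.smul_apply, Pi.add_apply, smul_eq_mul, add_mul,
      sum_add_distrib, ← mul_sum, hk, mul_assoc]
    ring
  have h2 := h.dg.co_M z i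
  rw [h1, co_smul] at h2
  omega

theorem Fr.parity (h : Fr B M) (y : Fin 24 → ℤ) (i j : Fin 24) :
    (2 : ℤ) ∣ co B M y i - co B M y j := by
  obtain ⟨x, T, hT⟩ := h.cong
  rw [h.dg.co_eq, h.dg.co_eq, ← sum_sub_distrib]
  refine dvd_sum fun a _ => ⟨(y ᵥ* B) a * (T a i - T a j), ?_⟩
  rw [hT, hT]
  ring

theorem Fr.dot (h : Fr B M) (x y : Fin 24 → ℤ) :
    ∑ i, co B M x i * co B M y i = 8 * (x ⬝ᵥ (B *ᵥ y)) := by
  have h1 := h.dg.bilin x y
  have h2 : ((∑ i, co B M x i * co B M y i : ℤ) : ℂ) = 8 * ((x ⬝ᵥ (B *ᵥ y) : ℤ) : ℂ) := by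
    rw [h1, mul_sum]
    push_cast
    refine sum_congr rfl fun i _ => ?_
    ring
  exact_mod_cast h2

/-- the code of a frame -/
def code (B M : Matrix (Fin 24) (Fin 24) ℤ) : Submodule (ZMod 2) (Fin 24 → ZMod 2) where
  carrier := {w | ∃ x y : Fin 24 → ℤ, (∀ i, co B M x i = 2 * y i) ∧ w = rd y}
  zero_mem' := ⟨0, 0, fun i => by simp [co], by funext i; simp [rd]⟩
  add_mem' := by
    rintro _ _ ⟨x, y, h, rfl⟩ ⟨x', y', h', rfl⟩
    refine ⟨x + x', y + y', fun i => ?_, by funext i; simp [rd]⟩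
    rw [co_add, Pi.add_apply, h, h', Pi.add_apply, mul_add]
  smul_mem' := by
    rintro c _ ⟨x, y, h, rfl⟩
    refine ⟨(c.val : ℤ) • x, (c.val : ℤ) • y, fun i => ?_, by funext i; simp [rd]⟩
    rw [co_smul, h, Pi.smul_apply, smul_eq_mul]
    ring

theorem norm_rd {n : ℕ} (y : Fin n → ℤ) :
    (hammingNorm (fun i => (y i : ZMod 2)) : ℤ) = ∑ i, y i % 2 := by
  rw [hammingNorm, card_filter]
  push_cast
  refine sum_congr rfl fun i _ => ?_
  have : ((y i : ZMod 2) = 0) ↔ (2 : ℤ) ∣ y i := ZMod.intCast_zmod_eq_zero_iff_dvd _ 2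
  by_cases h : (2 : ℤ) ∣ y i
  · rw [if_neg (not_not.2 (this.2 h))]; omega
  · rw [if_pos (this.not.2 h)]; omega

theorem Fr.min (h : Fr B M) : ∀ w ∈ code B M, w ≠ 0 → 8 ≤ hammingNorm w := by
  rintro _ ⟨x, y, hxy, rfl⟩ hw
  obtain ⟨i0, hi0⟩ := Function.ne_iff.1 hw
  have hodd : ¬ (2 : ℤ) ∣ y i0 := (ZMod.intCast_zmod_eq_zero_iff_dvd _ 2).not.1 hi0
  have h1 : ∃ z : Fin 24 → ℤ, (2 : ℤ) ∣ ∑ i, z i ∧
      ∀ i, (y i - 2 * z i) * (y i - 2 * z i) = y i % 2 := by
    by_cases he : (2 : ℤ) ∣ ∑ i, y i / 2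
    · refine ⟨fun i => y i / 2, he, fun i => ?_⟩
      have h2 : y i - 2 * (y i / 2) = y i % 2 := by omega
      rw [h2]
      rcases Int.emod_two_eq_zero_or_one (y i) with e | e <;> rw [e] <;> norm_num
    · refine ⟨fun i => y i / 2 + if i = i0 then 1 else 0, ?_, fun i => ?_⟩
      · rw [sum_add_distrib, sum_ite_eq']
        simp only [mem_univ, if_true]
        omega
      · by_cases hi : i = i0
        · subst hi
          have h2 : y i - 2 * (y i / 2 + 1) = -1 := by omega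
          have h3 : y i % 2 = 1 := by omega
          simp only [if_true, h2, h3]
          norm_num
        · have h2 : y i - 2 * (y i / 2) = y i % 2 := by omega
          simp only [if_neg hi, add_zero, h2]
          rcases Int.emod_two_eq_zero_or_one (y i) with e | e <;> rw [e] <;> norm_num
  obtain ⟨z, hz, hz'⟩ := h1
  obtain ⟨u, hu⟩ := h.four z hz
  have h2 : ∀ i, co B M (x - u) i = 2 * (y i - 2 * z i) := fun i => by
    rw [co_sub, hxy, hu]; ring
  have h3 : x - u ≠ 0 := by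
    intro h0
    have := h2 i0
    rw [h0] at this
    simp only [co, mulVec_zero, Pi.zero_apply] at this
    omega
  have h4 := h.hy.min _ h3
  have h5 := h.dot (x - u) (x - u)
  have h6 : ∑ i, co B M (x - u) i * co B M (x - u) i = 4 * ∑ i, y i % 2 := by
    rw [mul_sum]
    refine sum_congr rfl fun i _ => ?_
    rw [h2, ← hz']
    ring
  have h7 := norm_rd y
  have h8 : (8 : ℤ) ≤ (hammingNorm (fun i => (y i : ZMod 2)) : ℤ) := by omega
  exact_mod_cast h8

theorem Fr.big (h : Fr B M) (s : Fin 24 → ℤ) (hs : ∀ i, co B M s i % 4 = 2) :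
    12 ≤ s ⬝ᵥ (B *ᵥ s) := by
  have h1 := h.dot s s
  have h2 : ∑ _i : Fin 24, (4 : ℤ) ≤ ∑ i, co B M s i * co B M s i := by
    refine sum_le_sum fun i _ => ?_
    have := hs i
    rcases (by omega : co B M s i ≤ -2 ∨ 2 ≤ co B M s i) with e | e <;> nlinarith
  simp only [sum_const, card_univ, Fintype.card_fin, nsmul_eq_mul] at h2
  push_cast at h2
  omega

theorem Fr.cover (h : Fr B M) (t : Fin 23 → ZMod 2) :
    ∃ w ∈ code B M, hammingNorm (t - fun i => w i.succ) ≤ 3 := by
  let z : Fin 24 → ℤ := Fin.cons (∑ i, ((t i).val : ℤ)) (fun i => ((t i).val : ℤ))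
  obtain ⟨u, hu⟩ := h.four z ⟨∑ i, ((t i).val : ℤ), by
    rw [Fin.sum_univ_succ]; simp only [z, Fin.cons_zero, Fin.cons_succ]; ring⟩
  have hp0 : ∀ i, co B M (M *ᵥ Pi.single 0 1) i = 8 * (Pi.single 0 1 : Fin 24 → ℤ) i :=
    h.dg.co_M _
  have hp : M *ᵥ (Pi.single 0 1 : Fin 24 → ℤ) ≠ 0 := by
    intro h0
    have := hp0 0
    rw [h0] at this
    simp [co] at this
  obtain ⟨v, hv⟩ := h.hy.key u _ hp
  set s := u + (2 : ℤ) • v with hs
  have hs8 : s ⬝ᵥ (B *ᵥ s) ≤ 8 := by omega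
  have hev : ∀ i, (2 : ℤ) ∣ co B M v i := by
    by_contra hc
    push Not at hc
    obtain ⟨j, hj⟩ := hc
    have := h.big s fun i => by
      have := h.parity v i j
      rw [hs, co_two, hu]
      omega
    omega
  choose y hy using hev
  have h1 : ∀ i, co B M s i = 4 * (z i + y i) := fun i => by
    rw [hs, co_two, hu, hy]; ring
  have h2 := h.dot s s
  have h3 : ∑ i, co B M s i * co B M s i = 16 * ((z 0 + y 0) * (z 0 + y 0)) +
      16 * ∑ i : Fin 23, (z i.succ + y i.succ) * (z i.succ + y i.succ) := by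
    rw [Fin.sum_univ_succ, mul_sum]
    simp only [h1]
    congr 1
    · ring
    · exact sum_congr rfl fun i _ => by ring
  have h4 : ∑ i : Fin 23, (z i.succ + y i.succ) * (z i.succ + y i.succ) ≤ 3 := by
    have h5 := mul_self_nonneg (z 0 + y 0)
    rcases hv with hv | ⟨hv, hv'⟩
    · omega
    · have h6 := h.dot (M *ᵥ Pi.single 0 1) s
      rw [sum_eq_single 0 (fun i _ hi => by rw [hp0, Pi.single_eq_of_ne hi]; simp) (by simp),
        hp0, h1] at h6
      have h7 : z 0 + y 0 ≠ 0 := by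
        intro h0
        rw [h0] at h6
        omega
      have h8 := mul_self_pos.2 h7
      omega
  refine ⟨rd y, ⟨v, y, hy, rfl⟩, ?_⟩
  have h5 : (t - fun i => rd y i.succ) = fun i => ((z i.succ + y i.succ : ℤ) : ZMod 2) := by
    rw [Golay.sub_eq_add₂]
    funext i
    simp [z, rd]
  have h6 := norm_rd (fun i : Fin 23 => z i.succ + y i.succ)
  have h7 : ∑ i : Fin 23, (z i.succ + y i.succ) % 2 ≤
      ∑ i : Fin 23, (z i.succ + y i.succ) * (z i.succ + y i.succ) := by
    refine sum_le_sum fun i _ => ?_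
    generalize z i.succ + y i.succ = a
    rcases (by omega : a % 2 = 0 ∨ (a % 2 = 1 ∧ (a ≤ -1 ∨ 1 ≤ a))) with e | ⟨e, e' | e'⟩ <;>
      rw [e] <;> nlinarith
  rw [h5]
  have h8 : (hammingNorm (fun i : Fin 23 => ((z i.succ + y i.succ : ℤ) : ZMod 2)) : ℤ) ≤ 3 := by
    omega
  exact_mod_cast h8

theorem norm_tail (w : Fin 24 → ZMod 2) :
    hammingNorm w ≤ hammingNorm (fun i : Fin 23 => w i.succ) + 1 := by
  simp only [hammingNorm, card_filter]
  rw [Fin.sum_univ_succ]
  split_ifs <;> omega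

theorem Fr.card (h : Fr B M) : Nat.card (code B M) = 4096 := by
  classical
  let f : {s : Fin 23 → ZMod 2 // hammingNorm s ≤ 3} × code B M → (Fin 23 → ZMod 2) :=
    fun p => p.1.1 + fun i => p.2.1 i.succ
  have hf : Function.Bijective f := by
    constructor
    · rintro ⟨⟨s, hs⟩, ⟨w, hw⟩⟩ ⟨⟨s', hs'⟩, ⟨w', hw'⟩⟩ e
      have e' : s + (fun i => w i.succ) = s' + fun i => w' i.succ := e
      have h1 : (fun i : Fin 23 => (w - w') i.succ) = s + s' := by
        rw [← Golay.sub_eq_add₂, Golay.sub_eq_add₂ s, add_comm s, ← Golay.sub_eq_add₂]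
        funext i
        have := congrFun e' i
        simp only [Pi.add_apply, Pi.sub_apply] at this ⊢
        linear_combination this
      have h2 : w = w' := by
        by_contra hne
        have h3 := h.min _ (Submodule.sub_mem _ hw hw') (sub_ne_zero.2 hne)
        have h4 := norm_tail (w - w')
        have h5 := Golay.norm_add₂ s s'
        rw [h1] at h4
        omega
      subst h2
      have h3 : s = s' := add_right_cancel e'
      subst h3
      rfl
    · intro t
      obtain ⟨w, hw, h1⟩ := h.cover t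
      exact ⟨(⟨_, h1⟩, ⟨w, hw⟩), sub_add_cancel _ _⟩
  have h1 := Nat.card_eq_of_bijective f hf
  have h2 : Nat.card {s : Fin 23 → ZMod 2 // hammingNorm s ≤ 3} = 2048 := by
    rw [Nat.card_eq_fintype_card, Fintype.card_subtype, card_filter,
      Golay.sum_norm (fun m => if m ≤ 3 then 1 else 0), Fintype.card_fin]
    decide +kernel
  have h3 : Nat.card (Fin 23 → ZMod 2) = 2048 * 4096 := by
    rw [Nat.card_eq_fintype_card, Fintype.card_fun, ZMod.card, Fintype.card_fin]
    norm_num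
  rw [Nat.card_prod, h2, h3] at h1
  omega

theorem Fr.exists_odd (h : Fr B M) : ∃ x, ∀ i, co B M x i % 2 = 1 := by
  obtain ⟨e, he⟩ := Golay.code_equiv (by simp) h.card h.min
  have h1 : (1 : GolayPt → ZMod 2) ∈ golayCode := Submodule.subset_span (Set.mem_union_right _ rfl)
  obtain ⟨x, y, hxy, hy⟩ := (he _).1 h1
  have hodd : ∀ i, ¬ (2 : ℤ) ∣ y i := fun i => by
    refine (ZMod.intCast_zmod_eq_zero_iff_dvd _ 2).not.1 ?_
    have : (1 : ZMod 2) = (y i : ZMod 2) := congrFun hy i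
    rw [← this]
    exact one_ne_zero
  obtain ⟨v, hv⟩ := h.hy.short x
  refine ⟨v, fun j => ?_⟩
  by_contra hj
  have := h.big (x + (2 : ℤ) • v) fun i => by
    have := h.parity v i j
    have := hodd i
    rw [co_two, hxy]
    omega
  omega

theorem Hy.exists_good (h : Hy B) : ∃ M x, Fr B M ∧ ∀ i, co B M x i % 4 = 1 := by
  obtain ⟨M, hM⟩ := h.exists_fr
  obtain ⟨x, hx⟩ := hM.exists_odd
  obtain ⟨h1, h2⟩ := hM.sign (fun i => if co B M x i % 4 = 1 then 1 else -1)
    (fun i => by split_ifs <;> simp)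
  refine ⟨_, x, h1, fun i => ?_⟩
  rw [h2]
  have := hx i
  split_ifs <;> omega

theorem Fr.sum_even (h : Fr B M) {x0 : Fin 24 → ℤ} (h0 : ∀ i, co B M x0 i % 4 = 1)
    {x y : Fin 24 → ℤ} (hxy : ∀ i, co B M x i = 2 * y i) : (4 : ℤ) ∣ ∑ i, y i := by
  have h1 := h.dot x0 x
  have h2 : ∑ i, co B M x0 i * co B M x i
      = 2 * ∑ i, y i + 8 * ∑ i, (co B M x0 i / 4) * y i := by
    rw [mul_sum, mul_sum, ← sum_add_distrib]
    refine sum_congr rfl fun i _ => ?_
    have h3 : co B M x0 i = 1 + 4 * (co B M x0 i / 4) := by have := h0 i; omega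
    rw [hxy]
    linear_combination (2 * y i) * h3
  omega

theorem Fr.sum_odd (h : Fr B M) {x0 : Fin 24 → ℤ} (h0 : ∀ i, co B M x0 i % 4 = 1) :
    (∑ i, co B M x0 i / 4) % 2 = 1 := by
  have h1 := h.dot x0 x0
  have h2 : ∑ i, co B M x0 i * co B M x0 i = ∑ _i : Fin 24, (1 : ℤ) + 8 * ∑ i, co B M x0 i / 4
      + 16 * ∑ i, (co B M x0 i / 4) * (co B M x0 i / 4) := by
    rw [mul_sum, mul_sum, ← sum_add_distrib, ← sum_add_distrib]
    refine sum_congr rfl fun i _ => ?_
    have h3 : co B M x0 i = 1 + 4 * (co B M x0 i / 4) := by have := h0 i; omega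
    generalize co B M x0 i / 4 = a at *
    rw [h3]
    ring
  simp only [sum_const, card_univ, Fintype.card_fin, nsmul_eq_mul] at h2
  push_cast at h2
  have := h.hy.even x0
  omega

theorem Hy.leech (h : Hy B) : ∃ f : (Fin 24 → ℤ) ≃+ leechLattice, ∀ x : Fin 24 → ℤ,
    sqNorm ((f x : leechLattice) : GolayPt → ℤ) = 8 * (x ⬝ᵥ (B *ᵥ x)) := by
  obtain ⟨M, x0, hM, h0⟩ := h.exists_good
  obtain ⟨e, he⟩ := Golay.code_equiv (by simp) hM.card hM.min
  let g : (Fin 24 → ℤ) →+ (GolayPt → ℤ) :=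
    { toFun := fun x p => co B M x (e.symm p)
      map_zero' := by funext p; simp [co]
      map_add' := fun x y => by funext p; simp [co_add] }
  have hg : ∀ x p, g x p = co B M x (e.symm p) := fun _ _ => rfl
  have hev : ∀ x, (∀ i, (2 : ℤ) ∣ co B M x i) → g x ∈ leechLattice := by
    intro x hx
    choose y hy using hx
    refine (Leech.mem_leech _).2 ⟨0, fun p => y (e.symm p), fun p => by rw [hg, hy, zero_add],
      (he _).2 ⟨x, y, hy, by funext i; simp [Leech.red, rd]⟩, ?_⟩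
    rw [Equiv.sum_comp e.symm y]
    simpa using hM.sum_even h0 hy
  have hx0 : g x0 ∈ leechLattice := by
    refine (Leech.mem_leech _).2 ⟨1, fun p => 2 * (co B M x0 (e.symm p) / 4), fun p => ?_, ?_, ?_⟩
    · have := h0 (e.symm p)
      rw [hg]
      beta_reduce
      omega
    · convert golayCode.zero_mem using 1
      funext p
      simp only [Leech.red, Pi.zero_apply]
      exact (ZMod.intCast_zmod_eq_zero_iff_dvd _ 2).2 ⟨_, rfl⟩
    · rw [← mul_sum, Equiv.sum_comp e.symm (fun i => co B M x0 i / 4)]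
      have := hM.sum_odd h0
      omega
  have hmem : ∀ x, g x ∈ leechLattice := by
    intro x
    by_cases hx : (2 : ℤ) ∣ co B M x 0
    · exact hev x fun i => by have := hM.parity x i 0; omega
    · have h1 := hev (x - x0) fun i => by
        have := hM.parity x i 0
        have := h0 i
        rw [co_sub]
        omega
      have := leechLattice.add_mem h1 hx0
      rwa [← map_add, sub_add_cancel] at this
  have hsur0 : ∀ v ∈ leechLattice, Even (v none) → ∃ x, g x = v := by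
    intro v hv hev
    obtain ⟨y, hy, hc, hs⟩ := Leech.leech_even hv hev
    rw [Leech.cw_oddSet, he] at hc
    obtain ⟨x, y', hx, hy'⟩ := hc
    have h1 : rd y' = rd (fun i => y (e i)) := hy'.symm
    obtain ⟨z, hz⟩ := (rd_eq_iff _ _).1 h1
    have hz' : ∀ i, y (e i) = y' i + 2 * z i := fun i => by simpa using congrFun hz i
    have h2 := hM.sum_even h0 hx
    have h3 : ∑ p, y p = ∑ i, y' i + 2 * ∑ i, z i := by
      rw [← Equiv.sum_comp e y, mul_sum, ← sum_add_distrib]
      exact sum_congr rfl fun i _ => hz' i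
    obtain ⟨u, hu⟩ := hM.four z (by omega)
    refine ⟨x + u, funext fun p => ?_⟩
    have := hz' (e.symm p)
    rw [Equiv.apply_symm_apply] at this
    rw [hg, co_add, Pi.add_apply, hx, hu, hy, this]
    ring
  have hsur : ∀ v ∈ leechLattice, ∃ x, g x = v := by
    intro v hv
    rcases Int.even_or_odd (v none) with h1 | h1
    · exact hsur0 v hv h1
    · obtain ⟨x, hx⟩ := hsur0 (v - g x0) (leechLattice.sub_mem hv hx0) (by
        have := h0 (e.symm none)
        rw [Pi.sub_apply, hg]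
        exact h1.sub_odd (Int.odd_iff.2 (by omega)))
      exact ⟨x + x0, by rw [map_add, hx, sub_add_cancel]⟩
  refine ⟨AddEquiv.ofBijective (g.codRestrict leechLattice hmem) ⟨?_, ?_⟩, fun x => ?_⟩
  · intro x y hxy
    apply hM.dg.co_inj
    funext i
    have := congrFun (congrArg Subtype.val hxy) (e i)
    simpa [hg] using this
  · rintro ⟨v, hv⟩
    obtain ⟨x, hx⟩ := hsur v hv
    exact ⟨x, Subtype.ext hx⟩
  · rw [← hM.dot, ← Equiv.sum_comp e.symm]
    exact sum_congr rfl fun p _ => sq _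

end Cfsg.Agent.Block.Conway
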