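import Mathlib
import Cfsg.Agent.Block.LocPI
import Cfsg.Agent.Block.Cyc3
import Cfsg.Agent.Char.BrauerPerm

/-! Character theory of a block with a local system of maximal rank (cyclic defect groups). -/

namespace Cfsg.Agent.Block

open Cfsg Cfsg.Agent.Char Subgroup
open scoped _root_.Classical ComplexConjugate

section LS

variable {G : Type*} [Group G] [Fintype G] {p : ℕ} {M : Ideal AlgInt} {A : Type*} [Group A]
  [Fintype A] {E : Subgroup (MulAut A)} {B : Set (IrrCharacter G)} {D : IrrCharacter G → A → ℂ}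

theorem pow_dvd_of_vanish (hM : IsPModular p M) {ι : Type*} (s : Finset ι)
    (χ : ι → IrrCharacter G) (k : ι → ℤ)
    (h0 : ∀ g, p ∣ orderOf g → ∑ i ∈ s, (k i : ℂ) * (χ i : G → ℂ) g = 0) {n : ℕ}
    (hn : p ^ n ∣ Nat.card G) :
    (p : ℤ) ^ n ∣ ∑ i ∈ s, k i * (charDegree (χ i : G → ℂ) : ℤ) := by
  have h1 := sum_div_card_mem_V hM s χ (k := fun i => (k i : ℂ)) (fun i _ => intCast_mem _ _) h0 1
  rw [centralizer_eq_top_iff_subset.2 (by simp), card_top, mem_V_iff, map_div₀] at h1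
  have hG : (Nat.card G) ≠ 0 := Nat.card_pos.ne'
  have h2 : val M (Nat.card G : ℂ) ≠ 0 := by simpa using hG
  rw [div_le_one₀ (zero_lt_iff.2 h2), val_natCast hM hG] at h1
  refine pow_dvd_int_of_val_le hM (le_trans (le_of_eq ?_) (h1.trans ?_))
  · congr 1
    push_cast
    exact Finset.sum_congr rfl fun i _ => by rw [irr_degree_cast]
  · exact (val_p_pow_le_iff hM).2 ((hM.1.pow_dvd_iff_le_factorization hG).1 hn)

theorem LocSys.not_dvd_card (h : LocSys p M B E D) (hp : p.Prime) [Nontrivial A] :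
    ¬ p ∣ Nat.card E := by
  intro hd
  haveI := Fact.mk hp
  have h1 : p ∣ Nat.card A := h.pg.card_eq_or_dvd.resolve_left Finite.one_lt_card.ne'
  have h2 := h.card
  have h3 : p ∣ 1 := (Nat.dvd_add_right (hd.mul_left _)).1 (h2 ▸ dvd_add (hd.mul_left _) h1)
  exact hp.one_lt.ne' (Nat.dvd_one.1 h3)

theorem LocSys.height_eq_zero (hM : IsPModular p M) (h : LocSys p M B E D) [Nontrivial A]
    {δ : ℤ} {ζ : NTA A → IrrCharacter G} {a : IrrCharacter G → ℤ} (hδ : δ = 1 ∨ δ = -1)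
    (hd : LSData p B E D δ 0 ζ a) (ha : ∀ χ ∈ B, χ ∉ Set.range ζ → a χ = 1 ∨ a χ = -1)
    {χ : IrrCharacter G} (hχ : χ ∈ B) : blockHeight p B (χ : G → ℂ) = 0 := by
  haveI := Fact.mk hM.1
  obtain ⟨v, hv⟩ := exists_ne (1 : A)
  rw [← val_p_pow_inj hM, ← h.height χ hχ v hv, pow_zero]
  by_cases hζ : χ ∈ Set.range ζ
  · obtain ⟨lam, rfl⟩ := hζ
    obtain ⟨n, hn⟩ := h.pg v
    have h1 : Block.val M (∑ μ with ERel E lam.1 μ, (μ v : ℂ) - Nat.card E) < 1 := by
      rw [← h.card_eRel lam.2, Finset.card_eq_sum_ones, Nat.cast_sum, ← Finset.sum_sub_distrib]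
      refine Valuation.map_sum_lt _ one_ne_zero fun μ _ => ?_
      rw [Nat.cast_one]
      refine val_sub_one_lt_one_of_pow_eq_one hM (k := n) ?_
      rw [← Units.val_pow_eq_pow_val, ← map_pow, hn, map_one, Units.val_one]
    have h2 := (val_natCast_eq_one_iff hM _).2 (h.not_dvd_card hM.1)
    have h3 : Block.val M (∑ μ with ERel E lam.1 μ, (μ v : ℂ)) = 1 := by
      rw [← h2] at h1 ⊢
      exact Valuation.map_eq_of_sub_lt _ h1
    rw [h.valY hd lam hv, Int.cast_zero, zero_add, map_mul, h3]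
    rcases hδ with rfl | rfl <;> simp
  · rw [h.valX hd ⟨hχ, hζ⟩ hv]
    rcases ha χ hχ hζ with e | e <;> simp [e]

theorem LocSys.modEq_of_data (hM : IsPModular p M) (h : LocSys p M B E D)
    {δ d : ℤ} {ζ : NTA A → IrrCharacter G} {a : IrrCharacter G → ℤ}
    (hd : LSData p B E D δ d ζ a) (ha : ∀ χ ∈ B, χ ∉ Set.range ζ → a χ = 1 ∨ a χ = -1)
    {n : ℕ} (hn : p ^ n ∣ Nat.card G) {χ χ' : IrrCharacter G} (hχ : χ ∈ B \ Set.range ζ)
    (hχ' : χ' ∈ B \ Set.range ζ) :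
    a χ * (charDegree (χ : G → ℂ) : ℤ) ≡ a χ' * (charDegree (χ' : G → ℂ) : ℤ) [ZMOD (p : ℤ) ^ n] := by
  have key : ∀ g, p ∣ orderOf g → ∃ s : ℂ, ∀ ψ ∈ B \ Set.range ζ, a ψ * (ψ : G → ℂ) g = s := by
    intro g hg
    obtain ⟨f, -, hf⟩ := h.val g hg
    refine ⟨∑ v with v ≠ 1, f v, fun ψ hψ => ?_⟩
    rw [hf ψ hψ.1, Finset.mul_sum, Finset.sum_filter]
    refine Finset.sum_congr rfl fun v _ => ?_
    by_cases hv : v = 1
    · simp [hv, h.one]
    · rw [if_pos hv, h.valX hd hψ hv]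
      rcases ha ψ hψ.1 hψ.2 with e | e <;> simp [e]
  have := pow_dvd_of_vanish hM Finset.univ ![χ', χ] ![a χ', -a χ] (fun g hg => by
    obtain ⟨s, hs⟩ := key g hg
    simp [hs χ hχ, hs χ' hχ']) hn
  refine Int.modEq_iff_dvd.2 ?_
  simpa [sub_eq_add_neg] using this

/-- The characters of a block with a local system of maximal rank. -/
theorem LocSys.structure_of_rank (hM : IsPModular p M) (h : LocSys p M B E D) [Nontrivial A]
    (hl : Nat.card E ≤ blockRank p B) {n : ℕ} (hn : p ^ n ∣ Nat.card G) :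
    (∀ χ ∈ B, blockHeight p B (χ : G → ℂ) = 0) ∧ ∃ X Y : Set (IrrCharacter G), B = X ∪ Y ∧
      Disjoint X Y ∧ Nat.card X = Nat.card E ∧ Nat.card Y = (Nat.card A - 1) / Nat.card E ∧
      (∀ ψ ∈ Y, ∀ ψ' ∈ Y, ∀ g : G, ¬ p ∣ orderOf g → (ψ : G → ℂ) g = (ψ' : G → ℂ) g) ∧
      ∃ (δ : IrrCharacter G → ℤ) (δ₀ : ℤ), (∀ χ ∈ X, δ χ = 1 ∨ δ χ = -1) ∧ (δ₀ = 1 ∨ δ₀ = -1) ∧
      (∀ ψ ∈ Y, ∀ g : G, ¬ p ∣ orderOf g →
        (δ₀ : ℂ) * (ψ : G → ℂ) g + ∑ᶠ χ ∈ X, (δ χ : ℂ) * (χ : G → ℂ) g = 0) ∧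
      (∀ χ ∈ X, ∀ χ' ∈ X, δ χ * (charDegree (χ : G → ℂ) : ℤ) ≡
        δ χ' * (charDegree (χ' : G → ℂ) : ℤ) [ZMOD (p : ℤ) ^ n]) ∧
      (∀ ψ ∈ Y, ∀ χ ∈ X, (charDegree (ψ : G → ℂ) : ℤ) ≡
        -((Nat.card E : ℤ) * δ₀ * δ χ * (charDegree (χ : G → ℂ) : ℤ)) [ZMOD (p : ℤ) ^ n]) := by
  obtain ⟨δ, ζ, a, hδ, hd, hX, -, ha⟩ := h.exists_data_of_rank hM hl
  have hδ0 : δ ≠ 0 := by omega
  have hrel : ∀ ψ ∈ Set.range ζ, ∀ g : G, ¬ p ∣ orderOf g → ((-δ : ℤ) : ℂ) * (ψ : G → ℂ) g +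
      ∑ χ with χ ∈ B \ Set.range ζ, (a χ : ℂ) * (χ : G → ℂ) g = 0 := by
    rintro _ ⟨lam, rfl⟩ g hg
    simpa using hd.rel hδ0 lam g hg
  refine ⟨fun χ hχ => h.height_eq_zero hM hδ hd ha hχ, B \ Set.range ζ, Set.range ζ,
    (Set.sdiff_union_of_subset (by rintro _ ⟨i, rfl⟩; exact hd.mem i)).symm, Set.disjoint_sdiff_left,
    hX, ?_, ?_, a, -δ, fun χ hχ => ha χ hχ.1 hχ.2, by omega, fun ψ hψ g hg => ?_,
    fun χ hχ χ' hχ' => h.modEq_of_data hM hd ha hn hχ hχ', fun ψ hψ χ hχ => ?_⟩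
  · rw [← h.card_range hd.eq_iff, Nat.add_sub_cancel, Nat.mul_div_cancel _ Nat.card_pos]
  · rintro _ ⟨i, rfl⟩ _ ⟨j, rfl⟩
    exact hd.agree hδ0 i j
  · rw [finsum_mem_irr]
    exact hrel ψ hψ g hg
  · have h1 := hrel ψ hψ 1 (by simpa using hM.1.one_lt.ne')
    simp only [← irr_degree_cast] at h1
    have h2 : -δ * (charDegree (ψ : G → ℂ) : ℤ) +
        ∑ χ with χ ∈ B \ Set.range ζ, a χ * (charDegree (χ : G → ℂ) : ℤ) = 0 := by
      exact_mod_cast h1
    have h3 : ∑ χ with χ ∈ B \ Set.range ζ, a χ * (charDegree (χ : G → ℂ) : ℤ) ≡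
        (Nat.card E : ℤ) * (a χ * (charDegree (χ : G → ℂ) : ℤ)) [ZMOD (p : ℤ) ^ n] := by
      rw [← hX, Nat.card_eq_fintype_card, Fintype.card_subtype, ← nsmul_eq_mul, ← Finset.sum_const]
      exact Int.ModEq.sum fun χ' hχ' => h.modEq_of_data hM hd ha hn (Finset.mem_filter.1 hχ').2 hχ
    have h4 := h3.mul_left δ
    rw [eq_neg_of_add_eq_zero_right h2] at h4
    convert h4 using 1
    · rcases hδ with rfl | rfl <;> ring
    · ring

end LS

theorem mulAut_subgroup_eq {A : Type*} [Group A] [Finite A] {p : ℕ} (hp : p.Prime)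
    (hA : IsPGroup p A) (hc : IsCyclic A) {E E' : Subgroup (MulAut A)} (hE : ¬ p ∣ Nat.card E)
    (h : Nat.card E = Nat.card E') : E = E' := by
  haveI := Fact.mk hp
  obtain ⟨n, hn⟩ := IsPGroup.iff_card.1 hA
  by_cases h2 : p = 2
  · have h1 : IsPGroup p (MulAut A) := by
      rcases n with _ | n
      · exact IsPGroup.of_card (n := 0) (by rw [IsCyclic.card_mulAut, hn]; simp)
      · exact IsPGroup.of_card (n := n) (by
          rw [IsCyclic.card_mulAut, hn, Nat.totient_prime_pow_succ hp, h2]; simp)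
    have h3 := (h1.to_subgroup E).card_eq_or_dvd.resolve_right hE
    rw [card_eq_one.1 h3, card_eq_one.1 (h.symm.trans h3)]
  · have h1 : IsCyclic (ZMod (Nat.card A))ˣ := hn ▸ ZMod.isCyclic_units_of_prime_pow p hp h2 n
    have h3 : IsCyclic (⊤ : Subgroup (MulAut A)) := isCyclic_of_surjective _
      ((IsCyclic.mulAutMulEquiv A).symm.trans topEquiv.symm).surjective
    exact BG.Rank.eq_of_card_eq_of_isCyclic h3 le_top le_top h

theorem perfect_of_cyclic {G : Type*} [Group G] [Fintype G] {H : Type*} [Group H] [Fintype H]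
    {p : ℕ} {M : Ideal AlgInt} {A A' : Type*} [Group A] [Fintype A] [Group A'] [Fintype A']
    {E : Subgroup (MulAut A)} {E' : Subgroup (MulAut A')} {B : Set (IrrCharacter G)}
    {D : IrrCharacter G → A → ℂ} {c : Set (IrrCharacter H)} {D' : IrrCharacter H → A' → ℂ}
    (hM : IsPModular p M) (h : LocSys p M B E D) (h' : LocSys p M c E' D') [Nontrivial A']
    (hc : IsCyclic A) (hc' : IsCyclic A') (hA : Nat.card A' = Nat.card A)
    (hE : Nat.card E' = Nat.card E) (hl : Nat.card E ≤ blockRank p B)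
    (hl' : Nat.card E' ≤ blockRank p c) : ∃ I ε, IsPerfectIsometry p M c B I ε := by
  let f : A' ≃* A := mulEquivOfCyclicCardEq hA
  have h1 : E' = E.comap (MulAut.congr f).toMonoidHom := by
    refine mulAut_subgroup_eq hM.1 h'.pg hc' (h'.not_dvd_card hM.1) (hE.trans ?_)
    rw [MulEquiv.toMonoidHom_eq_coe, comap_equiv_eq_map_symm,
      card_map_of_injective (MulEquiv.injective _)]
  exact perfect_of_rank hM (h.congr f (E' := E') fun t => by rw [h1]; rfl) h' (hE ▸ hl) hl'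

/-- The signs of a perfect isometry from all the characters of a Frobenius group agree on the
characters not containing the Frobenius kernel in their kernel. -/
theorem sign_eq_of_perfect {G : Type*} [Group G] [Finite G] {H : Type*} [Group H] [Finite H]
    {p : ℕ} {M : Ideal AlgInt} (hp : p.Prime) {B : Set (IrrCharacter G)}
    {I : IrrCharacter H → IrrCharacter G} {ε : IrrCharacter H → ℤ}
    (h : IsPerfectIsometry p M Set.univ B I ε) {Q : Subgroup H} [Q.Normal] (hQ : IsPGroup p Q)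
    (hf : ∀ g ∉ Q, ∀ n ∈ Q, n * g = g * n → n = 1) {η η' : IrrCharacter H}
    (hη : ¬ Q ≤ charKer (η : H → ℂ)) (hη' : ¬ Q ≤ charKer (η' : H → ℂ)) : ε η = ε η' := by
  haveI := Fact.mk hp
  have := Fintype.ofFinite H
  set Φ : H → ℂ := ∑ θ, ((ε θ : ℂ) * (I θ : G → ℂ) 1) • (θ : H → ℂ) with hΦ
  have h0 : ∀ y ∈ Q, y ≠ 1 → Φ y = 0 := fun y hy h1 => by
    have h2 : p ∣ orderOf y := by
      rw [← orderOf_mk y hy]
      exact hQ.dvd_orderOf (by simpa using h1)
    have h3 := (h.2.2 1 y).2.2.resolve_left (by simp [IsPRegular, h2, hp.one_lt.ne'])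
    rw [signedBijectionKernel, finsum_mem_irr] at h3
    simpa [hΦ] using h3
  have key : ∀ θ : IrrCharacter H, ¬ Q ≤ charKer (θ : H → ℂ) →
      (ε θ : ℂ) * charDegree (I θ : G → ℂ) * Nat.card H = Φ 1 * charDegree (θ : H → ℂ) := by
    intro θ hθ
    have h1 : classInner Φ θ = (ε θ : ℂ) * (I θ : G → ℂ) 1 := by
      rw [hΦ, classInner_sum_smul_irr]
      simp
    rw [irr_degree_cast, ← h1, classInner_def, Finset.sum_eq_single 1, ← irr_degree_cast θ]
    · have : (Nat.card H : ℂ) ≠ 0 := by exact_mod_cast Nat.card_pos.ne'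
      simp only [map_natCast, Nat.card_eq_fintype_card] at this ⊢
      field_simp
    · intro y _ hy
      by_cases hyQ : y ∈ Q
      · rw [h0 y hyQ hy, zero_mul]
      · rw [BrauerPerm.isIrr_eq_zero_of_fpf Q θ.2 hθ (hf y hyQ), map_zero, mul_zero]
    · simp
  have h1 : (ε η : ℂ) * charDegree (I η : G → ℂ) * charDegree (η' : H → ℂ) =
      (ε η' : ℂ) * charDegree (I η' : G → ℂ) * charDegree (η : H → ℂ) := by
    have : (Nat.card H : ℂ) ≠ 0 := by exact_mod_cast Nat.card_pos.ne'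
    apply mul_right_cancel₀ this
    linear_combination (charDegree (η' : H → ℂ) : ℂ) * key η hη -
      (charDegree (η : H → ℂ) : ℂ) * key η' hη'
  have h2 : ε η * (charDegree (I η : G → ℂ) * charDegree (η' : H → ℂ) : ℕ) =
      ε η' * (charDegree (I η' : G → ℂ) * charDegree (η : H → ℂ) : ℕ) := by
    rw [mul_assoc, mul_assoc] at h1
    exact_mod_cast h1
  have h3 := Nat.pos_of_ne_zero (mul_ne_zero (irr_degree_ne_zero (I η)) (irr_degree_ne_zero η'))
  have h4 := Nat.pos_of_ne_zero (mul_ne_zero (irr_degree_ne_zero (I η')) (irr_degree_ne_zero η))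
  rcases h.2.1 η trivial with e | e <;> rcases h.2.1 η' trivial with e' | e' <;>
    rw [e, e'] at h2 ⊢ <;> omega

theorem exists_max_lift {G : Type*} [Group G] [Finite G] {p : ℕ} {M : Ideal AlgInt}
    (hM : IsPModular p M) {B : Set (IrrCharacter G)} {H P : Subgroup G}
    {c : Set (IrrCharacter H)} (hc : IsInducedBlock M H c B) (hP : IsDefectGroup p M B P)
    (hN : normalizer (P : Set G) ≤ H) (hcD : IsDefectGroup p M c (P.subgroupOf H)) :
    ∃ (d : BrauerPairIdx G) (b : BrauerPairIdx H), d.1 = P ∧ b.1 = P.subgroupOf H ∧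
      IsMaxBP p M B d ∧ IsMaxBP p M c b ∧
      (centralizer (b.1 : Set H)).relIndex (MulAction.stabilizer H b) =
        (centralizer (d.1 : Set G)).relIndex (MulAction.stabilizer G d) := by
  obtain ⟨b, hb1, hb⟩ := exists_isMaxBP hM hc.1 hcD
  have hPH : P ≤ H := le_normalizer.trans hN
  have hCH : centralizer (P : Set G) ≤ H := (centralizer_le_normalizer _).trans hN
  obtain ⟨d, rfl, hl⟩ := exists_lift_up b (R := P) (by
    rw [hb1, map_centralizer_subgroupOf hPH, inf_eq_right.2 hCH])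
  have hd : IsBP p M d := ⟨isDefectGroup_isPGroup hP, hl.block_iff.2 hb.bp.2⟩
  have hr : RP p M H c d := ⟨hd, hPH, hCH, (hl.isBPOf_iff hM hc.1 hb.bp).1 hb.of⟩
  obtain ⟨ξ, hξ⟩ := block_nonempty hM hc.1
  refine ⟨d, b, rfl, hb1, (isMaxBP_iff hM).2 ⟨isBPOf_of hM hd hc.2.1 ?_, hP⟩, hb, ?_⟩
  · rw [← mu_incl_resTo hCH, hr.mu_incl hM hc.1 hξ ((isCentral_eB B).resTo H),
      induced_lam_eB hM hc hξ]
    exact one_ne_zero
  · rw [hl.stabilizer_eq hPH hb1, ← relIndex_subgroupOf ((stabilizer_le_normalizer d).trans hN)]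
    congr 1
    exact Subgroup.ext fun x => hl.mem_centralizer.symm

end Cfsg.Agent.Block
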