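import Mathlib
import Cfsg.Agent.Block.Cyc4
import Cfsg.Agent.Block.LocSys2

/-! Dade's theorems on blocks with cyclic defect groups. -/

namespace Cfsg.Agent.Block

open Cfsg Cfsg.Agent.Char Subgroup
open scoped _root_.Classical ComplexConjugate

variable {G : Type*} [Group G] {p : ℕ} {M : Ideal AlgInt} {B : Set (IrrCharacter G)}
  {d : BrauerPairIdx G} {Z : Subgroup G}

theorem CycP.nontrivial [Finite G] {P : Subgroup G} (h : CycP p P Z) : Nontrivial P :=
  (nontrivial_iff_ne_bot _).2 fun e => h.ne_bot (le_bot_iff.1 (e ▸ h.le))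

theorem IsMaxBP.cyc_abFree [Finite G] (hM : IsPModular p M) (hd : IsMaxBP p M B d)
    (h : CycP p d.1 Z) : AbFree d :=
  ⟨h.comm, fun _ ht _ hv h1 e => h.mem_centralizer (stabilizer_le_normalizer d)
    (hd.not_dvd_of_abelian hM h.comm) ht 
    (h.mem_centralizer_of_commute hv h1 (mul_inv_eq_iff_eq_mul.1 e))⟩

theorem exists_locSys_cyc [Fintype G] (hM : IsPModular p M) (hd : IsMaxBP p M B d)
    (h : CycP p d.1 Z) : ∃ (E : Subgroup (MulAut d.1)) (D : IrrCharacter G → d.1 → ℂ),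
      LocSys p M B E D ∧
      Nat.card E = (centralizer (d.1 : Set G)).relIndex (MulAction.stabilizer G d) := by
  obtain ⟨D, hD⟩ := (hd.cyc_abFree hM h).exists_locSys hM hd
  exact ⟨_, D, hD, card_inert d⟩

variable [Finite G]

theorem cyc_blockRank (hM : IsPModular p M) (hd : IsMaxBP p M B d) (h : CycP p d.1 Z) :
    blockRank p B = (centralizer (d.1 : Set G)).relIndex (MulAction.stabilizer G d) := by
  have := Fintype.ofFinite G
  have := h.nontrivial
  obtain ⟨E, D, h1, h2⟩ := exists_locSys_cyc hM hd h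
  exact le_antisymm (h2 ▸ h1.rank_le hM) (cyc_le_blockRank hM hd h)

theorem cyc_perfect {H : Type*} [Group H] [Finite H] {c : Set (IrrCharacter H)}
    {b : BrauerPairIdx H} {Z' : Subgroup H} (hM : IsPModular p M) (hd : IsMaxBP p M B d)
    (h : CycP p d.1 Z) (hb : IsMaxBP p M c b) (h' : CycP p b.1 Z')
    (hc : Nat.card b.1 = Nat.card d.1)
    (he : (centralizer (b.1 : Set H)).relIndex (MulAction.stabilizer H b) =
      (centralizer (d.1 : Set G)).relIndex (MulAction.stabilizer G d)) :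
    ∃ I ε, IsPerfectIsometry p M c B I ε := by
  have := Fintype.ofFinite G
  have := Fintype.ofFinite H
  have := h'.nontrivial
  obtain ⟨E, D, h1, h2⟩ := exists_locSys_cyc hM hd h
  obtain ⟨E', D', h1', h2'⟩ := exists_locSys_cyc hM hb h'
  exact perfect_of_cyclic hM h1 h1' h.cyc h'.cyc hc (by rw [h2, h2', he])
    (h2 ▸ cyc_le_blockRank hM hd h) (h2' ▸ cyc_le_blockRank hM hb h')

theorem eq_stabilizer_of {T : Subgroup G} (hT : ∀ g : G, g ∈ T ↔ (g ∈ normalizer (d.1 : Set G) ∧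
    ∀ θ ∈ d.2, ∀ θ' : IrrCharacter (centralizer (d.1 : Set G)),
      (∀ h h' : centralizer (d.1 : Set G), (h' : G) = g * h * g⁻¹ →
        (θ' : centralizer (d.1 : Set G) → ℂ) h' = (θ : centralizer (d.1 : Set G) → ℂ) h) →
      θ' ∈ d.2)) : T = MulAction.stabilizer G d := by
  refine is_stabilizer_of fun g => (hT g).trans (and_congr_right fun hg => ?_)
  have hg' := LocalEven.normalizer_le_normalizer_centralizer _ hg
  have key := fun θ θ' => eq_irrComp_conjBack_iff g (mem_iff_of_mem_normalizer hg') (ξ := θ) (ξ' := θ')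
  refine ⟨fun h => ⟨hg', fun θ hθ => ⟨_, h θ hθ _ ((key θ _).2 rfl), (key θ _).2 rfl⟩⟩,
    fun h θ hθ θ' e => ?_⟩
  obtain ⟨χ, hχ, e'⟩ := h.2 θ hθ
  rwa [← (key θ θ').1 e, (key θ χ).1 e']

end Cfsg.Agent.Block
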