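import Mathlib
import Cfsg.Agent.Block.Knorr2

/-!
# The Harris–Knörr correspondence
-/

namespace Cfsg.Agent.Block

open Cfsg Cfsg.Agent.Char MonoidAlgebra Subgroup
open Cfsg.Agent.LocalEven hiding isPGroup_zpowers_of_orderOf
open scoped ComplexConjugate

variable {G : Type*} [Group G] [Finite G] {p : ℕ} {M : Ideal AlgInt} {B : Set (IrrCharacter G)}
  {N Q H L : Subgroup G}

theorem incl_br_of_first_main (hM : IsPModular p M) (hLN : L ≤ N)
    (hL : L = N ⊓ normalizer (Q : Set G)) (hQN : Q ≤ N) {d : Set (IrrCharacter N)}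
    (hdQ : IsDefectGroup p M d (Q.subgroupOf N)) {e : Set (IrrCharacter L)}
    (hed : IndAlong M (inclusion hLN) e d) :
    incl _ (br Q (incl N (eB M d))) = incl L (eB M e) := by
  have h1 := (indAlong_inclusion_iff hM hLN).1 hed
  have hL' : L.subgroupOf N = normalizer (Q.subgroupOf N : Set N) := by
    rw [hL, inf_normalizer_subgroupOf hQN]
  have h2 : indSet M (L.subgroupOf N) d = compSet (subgroupOfEquivOfLe hLN) e := by
    refine Set.Subset.antisymm (fun ξ hξ => ?_) (subset_indSet hM h1)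
    rw [mem_indSet_iff hM hed.2.1] at hξ
    rw [← first_main_unique' hM hL' hξ h1 hdQ]
    exact self_mem_blockOf hM ξ
  have hC : centralizer (Q.subgroupOf N : Set N) ≤ L.subgroupOf N :=
    hL' ▸ centralizer_le_normalizer _
  have h3 := brTo_eB hM (isDefectGroup_isPGroup hdQ) (hL' ▸ le_normalizer) hC hL'.le
    (isV_blockIdem hM hed.2.1)
  rw [← incl_incl_br hQN, ← incl_brTo hC, h3, h2, eB_compSet, incl_subgroupOf_resHom,
    incl_resTo N fun g hg => coeff_incl_of_notMem _ _ fun h => hg (hLN h)]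

theorem incl_br_eB (hM : IsPModular p M) (hQ : IsPGroup p Q) (hH : H = normalizer (Q : Set G))
    (hB : IsPBlock M B) : incl _ (br Q (eB M B)) = incl H (eB M (indSet M H B)) := by
  have hC : centralizer (Q : Set G) ≤ H := hH ▸ centralizer_le_normalizer _
  rw [← incl_brTo hC, brTo_eB hM hQ (hH ▸ le_normalizer) hC hH.le (isV_blockIdem hM hB)]

theorem covers_iff_mul_ne_zero' (hM : IsPModular p M) (hLH : L ≤ H) [(L.subgroupOf H).Normal]
    [Fintype (L.subgroupOf H)] {c : Set (IrrCharacter H)} (hc : IsPBlock M c)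
    {e : Set (IrrCharacter L)} (he : IsPBlock M e) :
    Covers c (compSet (subgroupOfEquivOfLe hLH) e) ↔ incl H (eB M c) * incl L (eB M e) ≠ 0 := by
  refine ⟨fun h h0 => h.mul_ne_zero hM hc (isPBlock_compSet _ he) ?_,
    covers_of_mul_ne_zero' hM hLH hc he⟩
  rw [eB_compSet, incl_subgroupOf_resHom, ← resTo_incl_mul, h0, map_zero]

theorem covers_compSet_iff (hLH : L ≤ H) [(L.subgroupOf H).Normal] [Fintype (L.subgroupOf H)]
    [Fintype L] {c : Set (IrrCharacter H)} {e : Set (IrrCharacter L)} :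
    Covers c (compSet (subgroupOfEquivOfLe hLH) e) ↔ ∃ ψ ∈ c, ∃ ξ ∈ e,
      classInner (fun l : L => (ψ : H → ℂ) (inclusion hLH l)) (ξ : L → ℂ) ≠ 0 := by
  refine ⟨fun ⟨ψ, hψ, ξ, hξ, h⟩ => ⟨ψ, hψ, _, mem_compSet.1 hξ, ?_⟩,
    fun ⟨ψ, hψ, ξ, hξ, h⟩ => ⟨ψ, hψ, _, irrComp_mem_compSet.2 hξ, ?_⟩⟩
  · rwa [← classInner_comp_equiv (subgroupOfEquivOfLe hLH).symm] at h
  · rwa [← classInner_comp_equiv (subgroupOfEquivOfLe hLH)] at h

variable [hN : N.Normal] [Fintype N] {d : Set (IrrCharacter N)} {e : Set (IrrCharacter L)}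
  {c c' : Set (IrrCharacter H)}

theorem br_eB_mul_incl (hM : IsPModular p M) (hQ : IsPGroup p Q) (hQN : Q ≤ N) :
    incl _ (br Q (eB M B * incl N (eB M d))) =
      incl _ (br Q (eB M B)) * incl _ (br Q (incl N (eB M d))) := by
  have := Fact.mk hM.1
  rw [br_mul (pF_eq_zero hM) hQ ((isCentral_eB B).invUnder Q)
    ((isCentral_eB d).invUnder_incl.mono hQN), map_mul]

theorem hk_covers (hM : IsPModular p M) (hQ : IsPGroup p Q) (hQN : Q ≤ N)
    (hH : H = normalizer (Q : Set G)) (hd : IsPBlock M d)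
    (hde : incl _ (br Q (incl N (eB M d))) = incl L (eB M e)) (h : IsInducedBlock M H c B)
    (h0 : incl H (eB M c) * incl L (eB M e) ≠ 0) : Covers B d := by
  refine covers_of_mul_ne_zero hM h.2.1 hd fun h1 => h0 ?_
  have h2 := br_eB_mul_incl hM hQ hQN (B := B) (d := d)
  rw [h1, map_zero, map_zero, hde, incl_br_eB hM hQ hH h.2.1] at h2
  rw [← eB_mul_of_subset (isV_blockIdem_indSet hM H B) (isV_blockIdem hM h.1) (subset_indSet hM h),
    ← (isCentral_eB c).commute, map_mul, mul_assoc, ← h2, mul_zero]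

theorem hk_exists (hM : IsPModular p M) (hQN : Q ≤ N) (hH : H = normalizer (Q : Set G))
    (hd : IsPBlock M d) (hdQ : IsDefectGroup p M d (Q.subgroupOf N))
    (hde : incl _ (br Q (incl N (eB M d))) = incl L (eB M e)) (hB : IsPBlock M B)
    (h : Covers B d) : ∃ c, IsInducedBlock M H c B ∧ incl H (eB M c) * incl L (eB M e) ≠ 0 := by
  have hQ : IsPGroup p Q := isPGroup_of_subgroupOf (isDefectGroup_isPGroup hdQ) hQN
  have h1 := (map_ne_zero_iff _ (incl_injective _)).2 (h.br_mul_ne_zero hM hB hd hQN hdQ)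
  rw [br_eB_mul_incl hM hQ hQN, hde, incl_br_eB hM hQ hH hB,
    eB_eq_sum_blocksIn hM (saturated_indSet hM H B), map_sum, Finset.sum_mul] at h1
  obtain ⟨c, hc, h2⟩ := Finset.exists_ne_zero_of_sum_ne_zero h1
  exact ⟨c, by rwa [← Finset.mem_coe, coe_blocksIn_indSet hM H hB] at hc, h2⟩

omit [Fintype N] in
theorem hk_defIn (hM : IsPModular p M) (hLH : L ≤ H) (hL : L = H ⊓ N) (hQL : Q ≤ L)
    (he : IsPBlock M e) (heQ : IsDefectGroup p M e (Q.subgroupOf L)) (hc : IsPBlock M c)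
    (h0 : incl H (eB M c) * incl L (eB M e) ≠ 0) :
    ∃ D, DefIn p H (incl H (eB M c)) D ∧ D ⊓ N = Q := by
  have hL' : L.subgroupOf H = N.subgroupOf H := by rw [hL, inf_subgroupOf_left]
  have : (L.subgroupOf H).Normal := hL' ▸ inferInstance
  have := Fintype.ofFinite (L.subgroupOf H)
  obtain ⟨P, hP, h1⟩ := (covers_of_mul_ne_zero' hM hLH hc he h0).exists_defect_inf_eq hM hc
    (isPBlock_compSet _ he) (Q := Q.subgroupOf H) (comap_mono hQL)
    ((isDefectGroup_compSet_le hLH).2 heQ)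
  refine ⟨_, (isDefectGroup_iff_defIn_map hM hc).1 hP, ?_⟩
  have h2 : (Q.subgroupOf H).map H.subtype = Q := map_subgroupOf_eq_of_le (hQL.trans hLH)
  rw [← h2, ← h1, hL', map_inf _ _ _ H.subtype_injective,
    subgroupOf_map_subtype, inf_comm N, ← inf_assoc,
    inf_eq_left.2 (map_subtype_le P)]

omit [Fintype N] in
theorem hk_unique (hM : IsPModular p M) (hH : H = normalizer (Q : Set G)) (hLH : L ≤ H)
    (hL : L = H ⊓ N) (hQL : Q ≤ L) (he : IsPBlock M e)
    (heQ : IsDefectGroup p M e (Q.subgroupOf L)) (h : IsInducedBlock M H c B)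
    (h' : IsInducedBlock M H c' B) (h0 : incl H (eB M c) * incl L (eB M e) ≠ 0)
    (h0' : incl H (eB M c') * incl L (eB M e) ≠ 0) : c = c' := by
  obtain ⟨D, hD, hDN⟩ := hk_defIn hM hLH hL hQL he heQ h.1 h0
  obtain ⟨D', hD', hDN'⟩ := hk_defIn hM hLH hL hQL he heQ h'.1 h0'
  have key : ∀ {D D' : Subgroup G} {x : G}, D ⊓ N = Q → D' ⊓ N = Q → cj x D = D' → x ∈ H :=
    fun {D D' x} h1 h2 h3 => by
      rw [hH, ← cj_eq_self_iff]
      conv_lhs => rw [← h1, cj_inf, h3, cj_eq_of_normal, h2]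
  have hn : normalizer (D : Set G) ≤ H := fun x hx => key hDN hDN (cj_eq_self_iff.2 hx)
  have hn' : normalizer (D' : Set G) ≤ H := fun x hx => key hDN' hDN' (cj_eq_self_iff.2 hx)
  obtain ⟨x, hx⟩ := isDefectGroup_conj hM h.2.1 (defect_of_induced_of_defIn hM hn' h' hD')
    (defect_of_induced_of_defIn hM hn h hD)
  refine induced_inj_of_defIn hM hn h h' hD ?_
  rw [← hx, ← (isCentral_eB c').invUnder_incl.cjA_eq (key hDN' hDN hx), br_cj_cjA_ne_zero_iff]
  exact hD'.ne

end Cfsg.Agent.Block
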