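import Mathlib
import Cfsg.Agent.Block.Star3
import Cfsg.Agent.Block.Rank2

/-!
The alternating sum of `k - l` over normal chains of `p`-subgroups (Knörr–Robinson).
-/

set_option autoImplicit false

namespace Cfsg.Agent.Block

open Cfsg Cfsg.Agent.Char MonoidAlgebra Subgroup
open Cfsg.Agent.LocalEven hiding isPGroup_zpowers_of_orderOf
open scoped _root_.Classical ComplexConjugate

variable {G : Type*} [Group G] {p : ℕ} {M : Ideal AlgInt} {s : Finset (Subgroup G)} {u : G}

/-- Chains of nontrivial `p`-subgroups normalizing each other. -/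
structure NCh (p : ℕ) (s : Finset (Subgroup G)) : Prop where
  chain : ∀ Q ∈ s, ∀ R ∈ s, Q ≤ R ∨ R ≤ Q
  pg : ∀ Q ∈ s, Q ≠ ⊥ ∧ IsPGroup p Q
  norm : ∀ Q ∈ s, ∀ R ∈ s, R ≤ normalizer (Q : Set G)

/-- The stabilizer of a chain. -/
abbrev chN (s : Finset (Subgroup G)) : Subgroup G := ⨅ Q ∈ s, normalizer (Q : Set G)

theorem le_chN {H : Subgroup G} : H ≤ chN s ↔ ∀ Q ∈ s, H ≤ normalizer (Q : Set G) := by
  simp only [chN, le_iInf_iff]

theorem le_normalizer_finsetSup {H : Subgroup G} (h : H ≤ chN s) :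
    H ≤ normalizer ((s.sup id : Subgroup G) : Set G) :=
  Finset.sup_induction (p := fun K : Subgroup G => H ≤ normalizer (K : Set G))
    (normalizer_eq_top (⊥ : Subgroup G) ▸ le_top) (fun _ h₁ _ h₂ => le_normalizer_sup h₁ h₂)
    (le_chN.1 h)

theorem NCh.mono (h : NCh p s) {t : Finset (Subgroup G)} (ht : t ⊆ s) : NCh p t :=
  ⟨fun Q hQ R hR => h.chain Q (ht hQ) R (ht hR), fun Q hQ => h.pg Q (ht hQ),
    fun Q hQ R hR => h.norm Q (ht hQ) R (ht hR)⟩

theorem NCh.sup_le (h : NCh p s) : s.sup id ≤ chN s :=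
  le_chN.2 fun Q hQ => Finset.sup_le fun R hR => h.norm Q hQ R hR

theorem NCh.sup_mem (h : NCh p s) (hs : s.Nonempty) : s.sup id ∈ s := by
  obtain ⟨T, hT, hm⟩ := s.exists_maximal hs
  rwa [show s.sup id = T from le_antisymm (Finset.sup_le fun Q hQ =>
    (h.chain Q hQ T hT).elim id fun e => hm hQ e) (Finset.le_sup (f := id) hT)]

theorem NCh.isPGroup (h : NCh p s) : IsPGroup p (s.sup id : Subgroup G) := by
  rcases s.eq_empty_or_nonempty with rfl | hs
  · exact IsPGroup.of_bot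
  · exact (h.pg _ (h.sup_mem hs)).2

theorem NCh.mid (h : NCh p s) : Mid (s.sup id) (chN s) :=
  ⟨h.sup_le, le_chN.2 fun Q hQ => (centralizer_le (show Q ≤ s.sup id from
    Finset.le_sup (f := id) hQ)).trans (centralizer_le_normalizer _),
    le_normalizer_finsetSup le_rfl⟩

theorem nCh_iff : NCh p s ∧ s.Nonempty ↔ s.Nonempty ∧ (∀ Q ∈ s, ∀ R ∈ s, Q ≤ R ∨ R ≤ Q) ∧
    (∀ Q ∈ s, Q ≠ ⊥ ∧ IsPGroup p Q) ∧ ∃ T ∈ s, ∀ Q ∈ s, Q ≤ T ∧ T ≤ normalizer (Q : Set G) :=
  ⟨fun ⟨h, hs⟩ => ⟨hs, h.chain, h.pg, _, h.sup_mem hs, fun Q hQ =>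
    ⟨Finset.le_sup (f := id) hQ, le_chN.1 h.sup_le Q hQ⟩⟩,
   fun ⟨hs, h1, h2, _, _, h3⟩ => ⟨⟨h1, h2, fun Q hQ R hR => (h3 R hR).1.trans (h3 Q hQ).2⟩, hs⟩⟩

/-- The top of a chain, together with `u`. -/
noncomputable def chR (u : G) (s : Finset (Subgroup G)) : Subgroup G := s.sup id ⊔ zpowers u

/-- The normal closure of `u` in `R`. -/
def nclIn (u : G) (R : Subgroup G) : Subgroup G := closure {x | ∃ r ∈ R, r * u * r⁻¹ = x}

/-- The subgroup inserted into or removed from a chain. -/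
noncomputable def chX (u : G) (s : Finset (Subgroup G)) : Subgroup G :=
  (s.filter (u ∉ ·)).sup id ⊔ nclIn u (chR u s)

theorem mem_chR : u ∈ chR u s := mem_sup_right (mem_zpowers u)

theorem mem_nclIn (R : Subgroup G) : u ∈ nclIn u R := subset_closure ⟨1, one_mem _, by simp⟩

theorem nclIn_le {R Q : Subgroup G} (hu : u ∈ Q) (h : R ≤ normalizer (Q : Set G)) :
    nclIn u R ≤ Q := (closure_le _).2 fun _ ⟨_, hr, e⟩ => e ▸ (h hr u).1 hu

theorem mem_chX : u ∈ chX u s := mem_sup_right (mem_nclIn _)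

theorem chX_le : chX u s ≤ chR u s :=
  sup_le ((Finset.sup_mono (Finset.filter_subset _ _)).trans le_sup_left)
    (nclIn_le mem_chR le_normalizer)

theorem le_normalizer_nclIn {H R : Subgroup G} (h : H ≤ normalizer (R : Set G))
    (h' : ∀ g ∈ H, ∃ r ∈ R, g * u * g⁻¹ = r * u * r⁻¹) :
    H ≤ normalizer (nclIn u R : Set G) := by
  refine le_normalizer_closure_iff.2 fun g hg x ⟨r, hr, e⟩ => ?_
  obtain ⟨r', hr', e'⟩ := h' g hg
  refine subset_closure ⟨g * r * g⁻¹ * r', mul_mem ((h hg r).1 hr) hr', ?_⟩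
  rw [← e, show g * (r * u * r⁻¹) * g⁻¹ = g * r * g⁻¹ * (g * u * g⁻¹) * (g * r * g⁻¹)⁻¹ by group, e']
  group

theorem le_normalizer_chX {H : Subgroup G} (h : H ≤ chN s)
    (h1 : H ≤ normalizer (chR u s : Set G))
    (h' : ∀ g ∈ H, ∃ r ∈ chR u s, g * u * g⁻¹ = r * u * r⁻¹) :
    H ≤ normalizer (chX u s : Set G) :=
  le_normalizer_sup (le_normalizer_finsetSup (le_chN.2 fun Q hQ =>
    le_chN.1 h Q (Finset.mem_filter.1 hQ).1)) (le_normalizer_nclIn h1 h')

theorem inf_le_normalizer_chX : chN s ⊓ centralizer {u} ≤ normalizer (chX u s : Set G) := by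
  refine le_normalizer_chX inf_le_left (le_normalizer_sup (le_normalizer_finsetSup inf_le_left)
    (inf_le_right.trans ?_)) fun g hg => ⟨1, one_mem _, ?_⟩
  · rw [← centralizer_zpowers]
    exact centralizer_le_normalizer _
  · rw [mem_centralizer_singleton_iff.1 hg.2]
    group

theorem NCh.chR_le (h : NCh p s) (hu : u ∈ chN s) : chR u s ≤ chN s :=
  _root_.sup_le h.sup_le (zpowers_le.2 hu)

theorem NCh.chR_le_normalizer (h : NCh p s) (hu : u ∈ chN s) :
    chR u s ≤ normalizer (chX u s : Set G) :=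
  le_normalizer_chX (h.chR_le hu) le_normalizer fun g hg => ⟨g, hg, rfl⟩

theorem NCh.isPGroup_chR (h : NCh p s) (hu : u ∈ chN s) (hk : ∃ k : ℕ, orderOf u = p ^ k) :
    IsPGroup p (chR u s) :=
  h.isPGroup.to_sup_of_normal_left' (isPGroup_zpowers_of_orderOf hk)
    (le_normalizer_finsetSup (zpowers_le.2 hu))

theorem NCh.insert (h : NCh p s) (hu : u ∈ chN s) (hk : ∃ k : ℕ, orderOf u = p ^ k)
    (h1 : u ≠ 1) : NCh p (insert (chX u s) s) := by
  have h2 : ∀ Q ∈ s, Q ≤ chX u s ∨ chX u s ≤ Q := fun Q hQ => by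
    by_cases huQ : u ∈ Q
    · refine .inr (_root_.sup_le (Finset.sup_le fun R hR => ?_)
        (nclIn_le huQ (le_chN.1 (h.chR_le hu) Q hQ)))
      obtain ⟨h3, h4⟩ := Finset.mem_filter.1 hR
      exact (h.chain R h3 Q hQ).resolve_right fun e => h4 (e huQ)
    · exact .inl (le_sup_of_le_left (Finset.le_sup (f := id) (Finset.mem_filter.2 ⟨hQ, huQ⟩)))
  have h3 : ∀ Q ∈ Insert.insert (chX u s) s, Q ≤ chR u s := fun Q hQ => by
    rcases Finset.mem_insert.1 hQ with rfl | hQ
    · exact chX_le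
    · exact le_sup_of_le_left (Finset.le_sup (f := id) hQ)
  refine ⟨fun Q hQ R hR => ?_, fun Q hQ => ?_, fun Q hQ R hR => (h3 R hR).trans ?_⟩
  · rcases Finset.mem_insert.1 hQ with rfl | hQ <;> rcases Finset.mem_insert.1 hR with rfl | hR
    · exact .inl le_rfl
    · exact (h2 R hR).symm
    · exact h2 Q hQ
    · exact h.chain Q hQ R hR
  · rcases Finset.mem_insert.1 hQ with rfl | hQ
    · exact ⟨fun e => h1 (mem_bot.1 (e ▸ mem_chX)), (h.isPGroup_chR hu hk).to_le chX_le⟩
    · exact h.pg Q hQ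
  · rcases Finset.mem_insert.1 hQ with rfl | hQ
    · exact h.chR_le_normalizer hu
    · exact le_chN.1 (h.chR_le hu) Q hQ

theorem chR_insert : chR u (insert (chX u s) s) = chR u s := by
  refine le_antisymm (sup_le ?_ le_sup_right)
    (sup_le_sup_right (Finset.sup_mono (Finset.subset_insert _ _)) _)
  rw [Finset.sup_insert]
  exact sup_le chX_le le_sup_left

theorem chX_insert : chX u (insert (chX u s) s) = chX u s := by
  rw [chX, chR_insert, Finset.filter_insert, if_neg (not_not.2 mem_chX), chX]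

theorem chN_insert_inf : chN (insert (chX u s) s) ⊓ centralizer {u} = chN s ⊓ centralizer {u} := by
  refine le_antisymm (inf_le_inf_right _ (le_chN.2 fun Q hQ =>
    le_chN.1 le_rfl Q (Finset.mem_insert_of_mem hQ))) (le_inf (le_chN.2 fun Q hQ => ?_) inf_le_right)
  rcases Finset.mem_insert.1 hQ with rfl | hQ
  · exact inf_le_normalizer_chX
  · exact inf_le_left.trans (le_chN.1 le_rfl Q hQ)

variable [Finite G]

theorem le_of_le_sup_nclIn [Fact p.Prime] {R S : Subgroup G} (hR : IsPGroup p R) (hS : S ≤ R)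
    (hu : u ∈ S) (h : R ≤ S ⊔ nclIn u R) : R ≤ S := by
  by_contra hn
  obtain ⟨K, -, ⟨h1, h2⟩, hK⟩ := Set.Finite.exists_le_maximal (Set.toFinite {K | S ≤ K ∧ K < R})
    ⟨le_rfl, lt_of_le_not_ge hS hn⟩
  have h3 := lt_inf_normalizer hR h2
  have h4 : R ≤ normalizer (K : Set G) := by
    by_contra h4
    exact h3.not_ge (hK ⟨h1.trans h3.le, lt_of_le_not_ge inf_le_left fun e =>
      h4 (e.trans inf_le_right)⟩ h3.le)
  exact h2.not_ge (h.trans (sup_le h1 (nclIn_le (h1 hu) h4)))

theorem NCh.chX_erase [Fact p.Prime] (h : NCh p s) (hu : u ∈ chN s)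
    (hk : ∃ k : ℕ, orderOf u = p ^ k) : chX u (s.erase (chX u s)) = chX u s := by
  have h1 : (s.erase (chX u s)).filter (u ∉ ·) = s.filter (u ∉ ·) := by
    rw [Finset.filter_erase, Finset.erase_eq_of_notMem (by simp [mem_chX])]
  have h2 : chR u (s.erase (chX u s)) ≤ chR u s :=
    sup_le_sup_right (Finset.sup_mono (Finset.erase_subset _ _)) _
  have h3 : chR u s ≤ chR u (s.erase (chX u s)) := by
    refine le_of_le_sup_nclIn (h.isPGroup_chR hu hk) h2 mem_chR (_root_.sup_le
      (Finset.sup_le fun Q hQ => ?_) (le_sup_of_le_left le_sup_right))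
    by_cases e : Q = chX u s
    · refine e.le.trans (sup_le_sup_right (h1 ▸ ?_) _)
      exact (Finset.sup_mono (Finset.filter_subset _ _)).trans le_sup_left
    · exact le_sup_of_le_left (le_sup_of_le_left
        (Finset.le_sup (f := id) (Finset.mem_erase.2 ⟨e, hQ⟩)))
  rw [chX, h1, le_antisymm h2 h3, ← chX]

theorem sum_chain_eq_zero [Fact p.Prime] [Fintype (Finset (Subgroup G))]
    (hk : ∃ k : ℕ, orderOf u = p ^ k) (h1 : u ≠ 1) (Φ : Subgroup G → Subgroup G → ℤ) :
    ∑ s with NCh p s ∧ u ∈ chN s, (-1) ^ s.card * Φ (chN s ⊓ centralizer {u}) (chR u s) = 0 := by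
  have key : ∀ s : Finset (Subgroup G), chX u s ∉ s →
      (-1) ^ s.card * Φ (chN s ⊓ centralizer {u}) (chR u s) + (-1) ^ (insert (chX u s) s).card *
        Φ (chN (insert (chX u s) s) ⊓ centralizer {u}) (chR u (insert (chX u s) s)) = 0 :=
    fun s hs => by
      rw [chN_insert_inf, chR_insert, Finset.card_insert_of_notMem hs]
      ring
  refine Finset.sum_involution
    (fun s _ => if chX u s ∈ s then s.erase (chX u s) else insert (chX u s) s)
    (fun s hs => ?_) (fun s _ _ => ?_) (fun s hs => ?_) (fun s hs => ?_)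
  · obtain ⟨h, hu⟩ := (Finset.mem_filter.1 hs).2
    split_ifs with e
    · have h2 := h.chX_erase hu hk
      have h3 := key (s.erase (chX u s)) (by rw [h2]; exact Finset.notMem_erase _ _)
      rwa [h2, Finset.insert_erase e, add_comm] at h3
    · exact key s e
  · split_ifs with e
    · exact Finset.erase_ne_self.2 e
    · exact Finset.insert_ne_self.2 e
  · obtain ⟨h, hu⟩ := (Finset.mem_filter.1 hs).2
    refine Finset.mem_filter.2 ⟨Finset.mem_univ _, ?_⟩
    split_ifs with e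
    · exact ⟨h.mono (Finset.erase_subset _ _), le_chN.2 (fun Q hQ =>
        le_chN.1 le_rfl Q (Finset.mem_of_mem_erase hQ)) hu⟩
    · exact ⟨h.insert hu hk h1, (chN_insert_inf.ge
        ⟨hu, mem_centralizer_singleton_iff.2 rfl⟩).1⟩
  · obtain ⟨h, hu⟩ := (Finset.mem_filter.1 hs).2
    by_cases e : chX u s ∈ s
    · simp only [if_pos e, h.chX_erase hu hk, if_neg (Finset.notMem_erase _ _),
        Finset.insert_erase e]
    · simp only [if_neg e, chX_insert, if_pos (Finset.mem_insert_self _ _), Finset.erase_insert e]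

/-- The rank of the sum of blocks of `K` determined by `y`. -/
noncomputable def rkOf (p : ℕ) (M : Ideal AlgInt) (K : Subgroup G) (y : MonoidAlgebra (F M) G) :
    ℕ := blockRank p {ψ : IrrCharacter K | lam M (ψ : K → ℂ) (resTo K y) ≠ 0}

theorem blockRank_eq_rkOf {L : Type*} [Group L] [Finite L] {K : Subgroup G} (e : K ≃* L)
    {A : Set (IrrCharacter L)} (hA : IsV M (blockIdem A)) {y : MonoidAlgebra (F M) G}
    (h : ∀ k : K, (eB M A).coeff (e k) = y.coeff k) : blockRank p A = rkOf p M K y := by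
  rw [← blockRank_compSet e, rkOf]
  congr 1
  ext ψ
  rw [mem_iff_lam_eB (M := M) (blockIdem_compSet e A ▸ hA.resHom _), Set.mem_ofPred_eq,
    show resTo K y = eB M (compSet e A) from ga_ext fun k => by
      rw [coeff_resTo, coeff_eB_compSet, h]]

theorem card_mul_sub_rank [Fintype G] (hM : IsPModular p M) {B : Set (IrrCharacter G)}
    (hB : IsV M (blockIdem B)) : (Nat.card G : ℤ) * ((Nat.card B : ℤ) - blockRank p B) =
      ∑ u : G with u ≠ 1 ∧ ∃ k, orderOf u = p ^ k, ((Nat.card (centralizer ({u} : Set G)) *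
        blockRank p (indSet M (centralizer {u}) B) : ℕ) : ℤ) := by
  apply Int.cast_injective (α := ℂ)
  have h1 : (Nat.card G : ℂ) * Nat.card B =
      ∑ g, ∑ χ : IrrCharacter G with χ ∈ B, (χ : G → ℂ) g * conj ((χ : G → ℂ) g) := by
    rw [Finset.sum_comm, card_eq_card_filter, Finset.card_eq_sum_ones, Nat.cast_sum, Finset.mul_sum]
    refine Finset.sum_congr rfl fun χ _ => ?_
    rw [← card_mul_classInner, classInner_irr_self, Nat.cast_one]
  push_cast
  rw [mul_sub, h1, card_mul_blockRank hM hB, ← Finset.sum_filter_add_sum_filter_not _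
    fun g => p ∣ orderOf g, add_sub_cancel_right, ← Finset.sum_fiberwise_of_maps_to (g := pp p)
      (t := Finset.univ.filter fun u => u ≠ 1 ∧ ∃ k, orderOf u = p ^ k) fun g hg => by
        simp only [Finset.mem_filter, Finset.mem_univ, true_and] at hg ⊢
        exact ⟨fun e => (pPart_eq_one_iff hM.1 (isPPart_pp hM.1 g)).1 e hg, pp_order hM.1 g⟩]
  refine Finset.sum_congr rfl fun u hu => ?_
  obtain ⟨h2, h3⟩ := (Finset.mem_filter.1 hu).2
  rw [← sum_section_block hM hB h3, Finset.filter_filter]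
  refine Finset.sum_congr (Finset.filter_congr fun g _ => and_iff_right_of_imp fun e => ?_)
    fun _ _ => rfl
  exact not_not.1 fun h => h2 (e ▸ (pPart_eq_one_iff hM.1 (isPPart_pp hM.1 g)).2 h)

theorem card_mul_sub_rank_mid [Fintype G] (hM : IsPModular p M) {B : Set (IrrCharacter G)}
    (hB : IsV M (blockIdem B)) {T H : Subgroup G} (hT : IsPGroup p T) (h : Mid T H) :
    (Nat.card H : ℤ) * ((Nat.card (indSet M H B) : ℤ) - blockRank p (indSet M H B)) =
      ∑ u : G with u ≠ 1 ∧ ∃ k, orderOf u = p ^ k, if u ∈ H then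
        ((Nat.card (H ⊓ centralizer {u} : Subgroup G) * rkOf p M (H ⊓ centralizer {u})
          (trunc (centralizer ((T ⊔ zpowers u : Subgroup G) : Set G)) (eB M B)) : ℕ) : ℤ)
        else 0 := by
  rw [card_mul_sub_rank hM (isV_blockIdem_indSet hM H B), ← Finset.sum_filter,
    Finset.filter_filter]
  refine Finset.sum_bij (fun u _ => (u : G)) (fun u hu => ?_) (fun _ _ _ _ e => Subtype.ext e)
    (fun u hu => ?_) fun u hu => ?_
  · simpa using hu
  · obtain ⟨h1, h2⟩ := (Finset.mem_filter.1 hu).2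
    exact ⟨⟨u, h2⟩, by simpa using h1, rfl⟩
  · simp only [Finset.mem_filter, Finset.mem_univ, true_and] at hu
    obtain ⟨e, he⟩ := exists_equiv_of_map_eq (K := centralizer ({u} : Set H))
      (K' := H ⊓ centralizer {(u : G)}) (by
        ext x
        simp only [mem_map, mem_inf, mem_centralizer_singleton_iff, coe_subtype, Subtype.ext_iff,
          coe_mul]
        exact ⟨fun ⟨y, h1, h2⟩ => h2 ▸ ⟨y.2, h1⟩, fun ⟨h1, h2⟩ => ⟨⟨x, h1⟩, h2, rfl⟩⟩)
    rw [Nat.card_congr e.toEquiv]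
    congr 2
    refine blockRank_eq_rkOf e (isV_blockIdem_indSet hM _ _) fun k => ?_
    rw [← resTo_eB_of_eq_centralizer hM (isPGroup_zpowers_of_orderOf hu.2)
      (centralizer_zpowers u).symm (isV_blockIdem_indSet hM _ _), coeff_resTo,
      ← brTo_eB hM hT h.le h.cle h.len hB, brTo_apply, coeff_resTo, he, coeff_trunc, coeff_trunc,
      centralizer_sup', centralizer_zpowers]
    exact if_congr (and_iff_left k.2.2).symm rfl rfl

theorem sum_chain_card_sub_rank [Fintype (Finset (Subgroup G))] (hM : IsPModular p M)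
    {B : Set (IrrCharacter G)} (hB : IsV M (blockIdem B)) :
    ∑ s with NCh p s, (-1) ^ s.card * ((Nat.card (chN s) : ℤ) *
      ((Nat.card (indSet M (chN s) B) : ℤ) - blockRank p (indSet M (chN s) B))) = 0 := by
  have := Fintype.ofFinite G
  have := Fact.mk hM.1
  rw [Finset.sum_congr rfl fun s hs => by
    rw [card_mul_sub_rank_mid hM hB (Finset.mem_filter.1 hs).2.isPGroup
      (Finset.mem_filter.1 hs).2.mid, Finset.mul_sum], Finset.sum_comm]
  refine Finset.sum_eq_zero fun u hu => ?_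
  obtain ⟨h1, h2⟩ := (Finset.mem_filter.1 hu).2
  refine Eq.trans ?_ (sum_chain_eq_zero h2 h1 fun K R =>
    (Nat.card K * rkOf p M K (trunc (centralizer (R : Set G)) (eB M B)) : ℕ))
  rw [← Finset.filter_filter, Finset.sum_filter (fun s => u ∈ chN s)]
  refine Finset.sum_congr rfl fun s _ => ?_
  rw [mul_ite, mul_zero, chR]

theorem indSet_top (hM : IsPModular p M) {B : Set (IrrCharacter G)} (hB : IsV M (blockIdem B)) :
    indSet M ⊤ B = compSet topEquiv B := by
  refine eB_injective (isV_blockIdem_indSet hM _ _) (blockIdem_compSet topEquiv B ▸ hB.resHom _) ?_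
  rw [← resTo_eB_of_eq_centralizer hM (Q := ⊥) IsPGroup.of_bot
    (eq_top_iff.2 fun g _ => by simp [mem_centralizer_iff]).symm hB]
  exact ga_ext fun k => by rw [coeff_resTo, coeff_eB_compSet]; rfl

end Cfsg.Agent.Block
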