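import Mathlib
import Cfsg.Agent.Block.Contr
import Cfsg.Agent.Block.Corr
import Cfsg.Agent.Block.Quot3
import Cfsg.Agent.Core.Cores

/-! Normal `p'`-subgroups in the kernels of local blocks. -/

namespace Cfsg.Agent.Block

open Cfsg Cfsg.Agent.Char MonoidAlgebra Subgroup
open Cfsg.Agent.LocalEven hiding isPGroup_zpowers_of_orderOf

variable {G : Type*} [Group G] [Finite G] {p : ℕ} {M : Ideal AlgInt} {a b d : BrauerPairIdx G}
  {B : Set (IrrCharacter G)} {H L : Subgroup G} {ρ : Set ℕ}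

open Classical in
/-- The sum of the elements of a subgroup. -/
noncomputable def subSum (R : Type*) [CommRing R] (L : Subgroup G) : MonoidAlgebra R G :=
  ofFun fun g => if g ∈ L then 1 else 0

theorem coeff_subSum {R : Type*} [CommRing R] (L : Subgroup G) (g : G) [Decidable (g ∈ L)] :
    (subSum R L).coeff g = if g ∈ L then 1 else 0 := by
  rw [subSum, coeff_ofFun]
  congr

theorem invUnder_subSum {R : Type*} [CommRing R] (h : H ≤ normalizer (L : Set G)) :
    InvUnder H (subSum R L) := by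
  classical
  intro q hq g
  rw [coeff_subSum, coeff_subSum, if_congr (mem_normalizer_iff.1 (h hq) g).symm rfl rfl]

theorem cjA_subSum {R : Type*} [CommRing R] (x : G) (L : Subgroup G) :
    cjA x (subSum R L) = subSum R (cj x L) := by
  classical
  refine ga_ext fun g => ?_
  rw [coeff_cjA, coeff_subSum, coeff_subSum, if_congr mem_cj rfl rfl]

theorem resTo_subSum {R : Type*} [CommRing R] (H L : Subgroup G) :
    resTo H (subSum R L) = subSum R (L.subgroupOf H) := by
  classical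
  refine ga_ext fun g => ?_
  rw [coeff_resTo, coeff_subSum, coeff_subSum, if_congr mem_subgroupOf rfl rfl]

theorem mu_subSum_inf (a : BrauerPairIdx G) (L : Subgroup G) :
    mu M a (subSum _ (L ⊓ centralizer (a.1 : Set G))) = mu M a (subSum _ L) := by
  refine mu_congr_br ?_
  rw [resTo_subSum, resTo_subSum, inf_subgroupOf_right]

theorem lam_subSum_ne_zero_iff (hM : IsPModular p M) [L.Normal] (hL : ¬ p ∣ Nat.card L)
    (χ : IrrCharacter G) :
    lam M (χ : G → ℂ) (subSum _ L) ≠ 0 ↔ L ≤ charKer (χ : G → ℂ) := by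
  classical
  have h0 : (Nat.card L : F M) ≠ 0 := by
    rw [← red_natCast, red_ne_zero_iff (natCast_mem _ _)]
    exact (val_natCast_eq_one_iff hM _).2 hL
  have h1 : subSum (F M) L = (Nat.card L : F M) • redG M (avg L) := by
    refine ga_ext fun g => ?_
    rw [coeff_smul, Finsupp.smul_apply, coeff_redG, coeff_subSum, coeff_avg]
    split_ifs
    · rw [red_inv ((val_natCast_eq_one_iff hM _).2 hL), red_natCast, smul_eq_mul,
        mul_inv_cancel₀ h0]
    · rw [red_zero, smul_zero]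
  rw [h1, map_smul, lam_redG _ (isCentral_avg L) (isV_avg hM hL), smul_eq_mul]
  by_cases h : L ≤ charKer (χ : G → ℂ)
  · simp [omega_avg_of_le h, red_one, h0, h]
  · simp [omega_avg_of_not_le h, red_zero, h]

theorem not_dvd_card_subgroupOf (hL : ¬ p ∣ Nat.card L) (H : Subgroup G) :
    ¬ p ∣ Nat.card (L.subgroupOf H) := fun h =>
  hL (h.trans (card_comap_dvd_of_injective _ _ H.subtype_injective))

theorem normal_subgroupOf_of_le_normalizer (h : H ≤ normalizer (L : Set G)) :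
    (L.subgroupOf H).Normal :=
  ⟨fun _ hn g => (mem_normalizer_iff.1 (h g.2) _).1 hn⟩

theorem RP.mu_subSum_iff (hM : IsPModular p M) {E : Set (IrrCharacter H)} (hE : IsPBlock M E)
    (h : RP p M H E a) (hn : H ≤ normalizer (L : Set G)) (hL : ¬ p ∣ Nat.card L)
    {ξ : IrrCharacter H} (hξ : ξ ∈ E) :
    Block.mu M a (subSum _ L) ≠ 0 ↔ L.subgroupOf H ≤ charKer (ξ : H → ℂ) := by
  have := normal_subgroupOf_of_le_normalizer hn
  rw [← h.lam_resTo hM hE hξ (invUnder_subSum hn), resTo_subSum,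
    lam_subSum_ne_zero_iff hM (not_dvd_card_subgroupOf hL H)]

theorem mu_subSum_iff (hM : IsPModular p M) (ha : IsPBlock M a.2)
    (hn : centralizer (a.1 : Set G) ≤ normalizer (L : Set G)) (hL : ¬ p ∣ Nat.card L)
    {ξ : IrrCharacter (centralizer (a.1 : Set G))} (hξ : ξ ∈ a.2) :
    mu M a (subSum _ L) ≠ 0 ↔ L.subgroupOf _ ≤ charKer ξ.1 := by
  have := normal_subgroupOf_of_le_normalizer hn
  rw [mu_eq hM ha hξ, resTo_subSum, lam_subSum_ne_zero_iff hM (not_dvd_card_subgroupOf hL _)]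

/-- The largest normal `ρ`-subgroup of the centralizer lies in the kernel of the local block. -/
def KerPi (ρ : Set ℕ) (a : BrauerPairIdx G) : Prop :=
  ∀ ξ ∈ a.2, piCore ρ (centralizer (a.1 : Set G)) ≤ charKer ξ.1

theorem not_dvd_of_isPi (hp : p.Prime) (hρ : p ∉ ρ) (hL : IsPiSubgroup ρ L) :
    ¬ p ∣ Nat.card L := fun h => hρ (hL p hp h)

theorem KerPi.mu_ne_zero (hM : IsPModular p M) (hρ : p ∉ ρ) (ha : IsPBlock M a.2)
    (h : KerPi ρ a) (hn : centralizer (a.1 : Set G) ≤ normalizer (L : Set G))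
    (hL : IsPiSubgroup ρ L) : mu M a (subSum _ L) ≠ 0 := by
  obtain ⟨ξ, hξ⟩ := block_nonempty hM ha
  exact (mu_subSum_iff hM ha hn (not_dvd_of_isPi hM.1 hρ hL) hξ).2
    ((Core.le_piCore (normal_subgroupOf_of_le_normalizer hn) (Core.IsPiSubgroup.subgroupOf hL _)).trans (h ξ hξ))

omit [Finite G] in
theorem normalizer_le_normalizer_piCoreOf (ρ : Set ℕ) (Q : Subgroup G) :
    normalizer (Q : Set G) ≤
      normalizer ((piCoreOf ρ (centralizer (Q : Set G)) : Subgroup G) : Set G) := by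
  refine le_trans (fun x hx => ?_) (Core.normalizer_le_normalizer_map_subtype _ _)
  rw [← cj_eq_self_iff, cj_centralizer, cj_eq_of_mem_normalizer hx]

theorem isPi_piCoreOf (ρ : Set ℕ) (H : Subgroup G) : IsPiSubgroup ρ (piCoreOf ρ H) :=
  Core.IsPiSubgroup.map (Core.piCore_isPiSubgroup ρ) _

theorem kerPi_of_mu (hM : IsPModular p M) (hρ : p ∉ ρ) (ha : IsPBlock M a.2)
    (hn : centralizer (a.1 : Set G) ≤ normalizer (L : Set G)) (hL : IsPiSubgroup ρ L)
    (hle : piCoreOf ρ (centralizer (a.1 : Set G)) ≤ L) (h : mu M a (subSum _ L) ≠ 0) :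
    KerPi ρ a := fun _ hξ _ hx =>
  (mu_subSum_iff hM ha hn (not_dvd_of_isPi hM.1 hρ hL) hξ).1 h (hle (mem_map_of_mem _ hx))

theorem KerPi.smul (hM : IsPModular p M) (hρ : p ∉ ρ) (ha : IsBP p M a) (h : KerPi ρ a) (x : G) :
    KerPi ρ (x • a) := by
  let L := piCoreOf ρ (centralizer ((x • a).1 : Set G))
  have hn : centralizer ((x • a).1 : Set G) ≤ normalizer (L : Set G) :=
    (centralizer_le_normalizer _).trans (normalizer_le_normalizer_piCoreOf ρ _)
  have hn' : centralizer (a.1 : Set G) ≤ normalizer (cj x⁻¹ L : Set G) := by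
    rw [← cj_normalizer, le_cj_iff, inv_inv, cj_centralizer]
    exact hn
  refine kerPi_of_mu hM hρ (isBP_smul ha x).2 hn (isPi_piCoreOf ρ _) le_rfl ?_
  rw [← cj_cj_inv x L, ← cjA_subSum, mu_smul hM ha x (invUnder_subSum hn')]
  exact h.mu_ne_zero hM hρ ha.2 hn' (Core.IsPiSubgroup.map (isPi_piCoreOf ρ _) _)

theorem KerPi.down (hM : IsPModular p M) (hρ : p ∉ ρ) (hab : PLe p M a b) (hb : IsBP p M b)
    (h : KerPi ρ b) : KerPi ρ a := by
  induction hab using Relation.ReflTransGen.head_induction_on with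
  | refl => exact h
  | @head a c hac _ ih =>
    have hac : NSub p M a c := hac
    have hn := normalizer_le_normalizer_piCoreOf ρ a.1
    have hn' := (centralizer_le_normalizer _).trans hn
    refine kerPi_of_mu hM hρ hac.left.2 hn' (isPi_piCoreOf ρ _) le_rfl ?_
    rw [← hac.mu_eq_mu hM (invUnder_subSum (hac.le_normalizer.trans hn)) (invUnder_subSum hn')]
    exact ih.mu_ne_zero hM hρ hac.right.2 ((centralizer_le hac.le).trans hn') (isPi_piCoreOf ρ _)

/-- The `ρ`-elements of the centralizer form a normal subgroup. -/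
def HallPi (ρ : Set ℕ) (Q : Subgroup G) : Prop :=
  ∀ x ∈ centralizer (Q : Set G), (∀ q : ℕ, q.Prime → q ∣ orderOf x → q ∈ ρ) →
    x ∈ piCoreOf ρ (centralizer (Q : Set G))

theorem HallPi.piCoreOf_le {Q R : Subgroup G} (h : HallPi ρ Q) (hQR : Q ≤ R) :
    piCoreOf ρ (centralizer (R : Set G)) ≤ piCoreOf ρ (centralizer (Q : Set G)) := fun x hx =>
  h x (centralizer_le hQR (map_subtype_le _ hx))
    (Core.isPiSubgroup_iff_orderOf.1 (isPi_piCoreOf ρ _) x hx)

theorem HallPi.up {Q R : Subgroup G} (h : HallPi ρ Q) (hQR : Q ≤ R) : HallPi ρ R := by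
  intro x hx hρ
  have hn : centralizer (R : Set G) ≤
      normalizer ((piCoreOf ρ (centralizer (Q : Set G)) : Subgroup G) : Set G) :=
    (centralizer_le hQR).trans
      ((centralizer_le_normalizer _).trans (normalizer_le_normalizer_piCoreOf ρ Q))
  exact ⟨⟨x, hx⟩, Core.le_piCore (normal_subgroupOf_of_le_normalizer hn)
    (Core.IsPiSubgroup.subgroupOf (isPi_piCoreOf ρ _) _) (h x (centralizer_le hQR hx) hρ), rfl⟩

theorem KerPi.up (hM : IsPModular p M) (hρ : p ∉ ρ) (hab : PLe p M a b) (hH : HallPi ρ a.1)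
    (h : KerPi ρ a) : KerPi ρ b := by
  induction hab with
  | refl => exact h
  | @tail c b hac hcb ih =>
    have hcb : NSub p M c b := hcb
    have hn := normalizer_le_normalizer_piCoreOf ρ c.1
    have hn' := (centralizer_le_normalizer _).trans hn
    refine kerPi_of_mu hM hρ hcb.right.2 ((centralizer_le hcb.le).trans hn') (isPi_piCoreOf ρ _)
      ((hH.up (PLe.le hac)).piCoreOf_le hcb.le) ?_
    rw [hcb.mu_eq_mu hM (invUnder_subSum (hcb.le_normalizer.trans hn)) (invUnder_subSum hn')]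
    exact ih.mu_ne_zero hM hρ hcb.left.2 hn' (isPi_piCoreOf ρ _)

theorem KerPi.of_max (hM : IsPModular p M) (hρ : p ∉ ρ) (hd : IsMaxBP p M B d) (h : KerPi ρ d)
    (ha : IsBPOf p M B a) : KerPi ρ a := by
  obtain ⟨c, hc, hac⟩ := ha.exists_max hM
  obtain ⟨x, rfl⟩ := hc.exists_smul_eq hM hd
  exact (h.smul hM hρ hd.bp x).down hM hρ hac hc.bp

theorem KerPi.to_max (hM : IsPModular p M) (hρ : p ∉ ρ) (ha : IsBPOf p M B a) (h : KerPi ρ a)
    (hH : HallPi ρ a.1) (hd : IsMaxBP p M B d) : KerPi ρ d := by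
  obtain ⟨c, hc, hac⟩ := ha.exists_max hM
  obtain ⟨x, rfl⟩ := hd.exists_smul_eq hM hc
  exact (h.up hM hρ hac hH).smul hM hρ hc.bp x

theorem KerPi.piCore_le (hM : IsPModular p M) (hρ : p ∉ ρ) {E : Set (IrrCharacter H)}
    (hE : IsPBlock M E) (ha : RP p M H E a) (h : KerPi ρ a) : piCore ρ H ≤ setKer E := by
  have hn : H ≤ normalizer ((piCoreOf ρ H : Subgroup G) : Set G) :=
    le_normalizer.trans (Core.normalizer_le_normalizer_map_subtype _ _)
  refine le_setKer fun ξ hξ x hx => ?_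
  exact (ha.mu_subSum_iff hM hE hn (not_dvd_of_isPi hM.1 hρ (isPi_piCoreOf ρ H)) hξ).1
    (h.mu_ne_zero hM hρ ha.bp.2 (ha.cle.trans hn) (isPi_piCoreOf ρ H)) (mem_map_of_mem _ hx)

theorem kerPi_of_normalizer (hM : IsPModular p M) (hρ : p ∉ ρ) (ha : IsBP p M a)
    (hH : Mid a.1 H) {ξ : IrrCharacter H} (hξ : ξ ∈ ovr H a)
    (h : (piCoreOf ρ (centralizer (a.1 : Set G))).subgroupOf H ≤ charKer ξ.1) : KerPi ρ a := by
  have hn := normalizer_le_normalizer_piCoreOf ρ a.1
  exact kerPi_of_mu hM hρ ha.2 ((centralizer_le_normalizer _).trans hn) (isPi_piCoreOf ρ _) le_rfl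
    (((rp_ovr hM ha hH).mu_subSum_iff hM (isPBlock_ovr hM ha hH) (hH.len.trans hn)
      (not_dvd_of_isPi hM.1 hρ (isPi_piCoreOf ρ _)) hξ).2 h)

/-- The hypothesis on the Brauer correspondent in terms of a maximal pair. -/
theorem exists_max_of_correspondent (hM : IsPModular p M) {D : Subgroup G}
    (hD : IsDefectGroup p M B D) {B₁ : Set (IrrCharacter (normalizer (D : Set G)))}
    (h₁ : IsInducedBlock M _ B₁ B) :
    ∃ e, IsMaxBP p M B ⟨D, e⟩ ∧ B₁ = ovr _ ⟨D, e⟩ := by
  obtain ⟨⟨D, e⟩, rfl, hd⟩ := exists_isMaxBP hM h₁.2.1 hD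
  exact ⟨e, hd, first_main_unique' hM rfl h₁ (hd.induced_ovr hM (mid_normalizer _)) hD⟩

theorem kerPi_of_correspondent (hM : IsPModular p M) (hρ : p ∉ ρ) {D : Subgroup G}
    (hD : IsDefectGroup p M B D) {B₁ : Set (IrrCharacter (normalizer (D : Set G)))}
    (h₁ : IsInducedBlock M _ B₁ B) (hk : ∀ n ∈ piCore ρ _, n ∈ blockKer B₁)
    (ha : IsBPOf p M B a) : KerPi ρ a := by
  obtain ⟨e, hd, rfl⟩ := exists_max_of_correspondent hM hD h₁
  obtain ⟨ξ, hξ⟩ := block_nonempty hM h₁.1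
  refine KerPi.of_max hM hρ hd (kerPi_of_normalizer hM hρ hd.bp (mid_normalizer _) hξ ?_) ha
  have hle := Core.le_piCore (normal_subgroupOf_of_le_normalizer
    (normalizer_le_normalizer_piCoreOf ρ D)) (Core.IsPiSubgroup.subgroupOf (isPi_piCoreOf ρ _) _)
  have hk' : piCore ρ _ ≤ setKer (ovr (normalizer (D : Set G)) (⟨D, e⟩ : BrauerPairIdx G)) :=
    fun n hn => by
    rw [← SetLike.mem_coe, coe_setKer]
    exact hk n hn
  exact hle.trans (hk'.trans (setKer_le hξ))

end Cfsg.Agent.Block
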