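import Mathlib
import Cfsg.Agent.Block.SmallDeg
import Cfsg.Agent.Block.AbFrob2
import Cfsg.Agent.Isaacs.TIDeg

/-!
Leonard's theorem on characters of small degree for groups with an abelian Sylow subgroup all of
whose non-identity elements have the same centraliser.
-/

namespace Cfsg.Agent.Block

open Cfsg Cfsg.Agent.Char Subgroup
open scoped _root_.Classical ComplexConjugate Pointwise commutatorElement

variable {G : Type*} [Group G] [Fintype G] {p : ℕ} {P : Subgroup G}

/-- All non-identity elements of the Sylow subgroup `P` have the centraliser of `P`. -/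
structure Star (p : ℕ) (P : Subgroup G) : Prop extends AbSyl p P where
  star : ∀ x ∈ P, x ≠ 1 → centralizer ({x} : Set G) ≤ centralizer (P : Set G)

theorem AbSyl.card_le_degree (h : AbSyl p P) {D : G → ℂ} (hD : IsCharacter G D)
    (h1 : ∀ μ : P →* ℂˣ, μ ≠ 1 → classInner (fun x : P => D x) (lc μ) ≠ 0) :
    Nat.card P ≤ charDegree D + 1 := by
  let f : (P →* ℂˣ) → IrrCharacter P := fun μ => ⟨lc μ, isIrr_linear μ⟩
  have hf : Function.Injective f := fun a b e => lc_injective (congrArg Subtype.val e)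
  have := sum_degree_le (isChar_res P hD) (S := (Finset.univ.erase 1).image f) fun χ hχ => by
    obtain ⟨μ, hμ, rfl⟩ := Finset.mem_image.1 hχ
    exact h1 μ (Finset.mem_erase.1 hμ).1
  rw [Finset.sum_image fun a _ b _ e => hf e, Finset.sum_congr rfl (g := fun _ => 1)
    fun μ _ => charDegree_of_eq (by simp [f, lc]), Finset.sum_const, smul_eq_mul, mul_one,
    Finset.card_erase_of_mem (Finset.mem_univ _), Finset.card_univ, ← Nat.card_eq_fintype_card,
    h.card_hom] at this
  change _ ≤ charDegree D at this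
  omega

theorem AbSyl.le_charKer_of_const (h : AbSyl p P) {D : G → ℂ} (hD : IsCharacter G D) {c : ℂ}
    (hc : ∀ x : P, x ≠ 1 → D x = c) (hd : charDegree D + 1 < Nat.card P) : P ≤ charKer D := by
  obtain ⟨μ, h1, h2⟩ : ∃ μ : P →* ℂˣ, μ ≠ 1 ∧ classInner (fun x : P => D x) (lc μ) = 0 := by
    by_contra! e
    exact absurd (h.card_le_degree hD e) (by omega)
  rw [inner_eq_add_of_eq_off_one (ψ := c • lc 1) (fun x hx => by simp [hc x hx, lc]),
    classInner_smul_left, inner_lc, if_neg h1.symm, mul_zero, zero_add, div_eq_zero_iff,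
    or_iff_left card_ne_zero, sub_eq_zero] at h2
  intro x hx
  rw [mem_charKer_iff hD]
  by_cases e : x = 1
  · rw [e]
  · rw [hc ⟨x, hx⟩ fun e' => e (congrArg Subtype.val e')]
    simpa [lc] using h2.symm

omit [Fintype G] in
theorem KerP.eq_of_cI_tw [Finite G] {h : AbSyl p P} {θ : IrrCharacter (centralizer (P : Set G))}
    (hθ : KerP θ) {lam μ : P →* ℂˣ} {n} (e : Block.cI n (tw h lam θ) = tw h μ θ) :
    μ = lam.comp (cP n) := by
  refine MonoidHom.ext fun x => Units.val_injective ?_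
  have h1 := congrArg (fun ξ : IrrCharacter (centralizer (P : Set G)) =>
    ξ.1 (inclusion h.comm x)) e
  simp only [cI_tw, hθ.tw_inclusion, (hθ.cI n).tw_inclusion, cI_apply, map_one] at h1
  exact (mul_right_cancel₀ (irr_one_ne_zero θ) h1).symm

namespace Star

variable (h : Star p P)
include h

theorem abFrob : AbFrob p P where
  toAbSyl := h.toAbSyl
  frob _ x hx e := h.star x x.2 (fun e => hx (Subtype.ext e))
    (mem_centralizer_singleton_iff.2 (mul_inv_eq_iff_eq_mul.1 (congrArg Subtype.val e)))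

theorem mem_normalizer {c g : G} (hc : c ∈ centralizer (P : Set G)) (hd : p ∣ orderOf c)
    (hg : g * c * g⁻¹ ∈ centralizer (P : Set G)) : g ∈ normalizer (P : Set G) := by
  have h1 := h.toAbSyl.pp_mem hg
  rw [pp_conj h.prime] at h1
  have h2 : pp p c ≠ 1 := fun e =>
    (pPart_eq_one_iff h.prime ((pp_eq_iff h.prime).1 rfl)).1 e hd
  refine mem_normalizer_fintype fun y hy => h.toAbSyl.mem_of_normalizer ?_
    (centralizer_le_normalizer _ (h.star _ h1 (by simpa [mul_inv_eq_one] using h2) ?_))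
  · rw [show orderOf (g * y * g⁻¹) = orderOf y from (MulAut.conj g).orderOf_eq y]
    exact exists_orderOf_eq_pow_of_mem h.prime h.pg hy
  · rw [mem_centralizer_singleton_iff, conj_mul, conj_mul, h.comm hy _ (h.toAbSyl.pp_mem hc)]

theorem inner_indFun {u v : centralizer (P : Set G) → ℂ}
    (hu : ∀ c : centralizer (P : Set G), ¬ p ∣ orderOf c → u c = 0) :
    classInner (indFun _ u) (indFun _ v) =
      (Nat.card (centralizer (P : Set G)) : ℂ)⁻¹ * ∑ n, classInner u (fun c => v (cH n c)) := by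
  rw [Ind.inner_indFun_left _ _ (Ind.indFun_classFun _ _)]
  simp only [classInner_def, ← Finset.mul_sum]
  congr 1
  rw [Finset.sum_comm, Finset.mul_sum]
  refine Finset.sum_congr rfl fun c _ => ?_
  by_cases hc : p ∣ orderOf c
  · have : indFun _ v c = (Nat.card (centralizer (P : Set G)) : ℂ)⁻¹ * ∑ n, v (cH n c) := by
      rw [Ind.indFun_apply']
      congr 1
      rw [← Finset.sum_filter_of_ne (p := (· ∈ normalizer (P : Set G))),
        Finset.sum_subtype _ (p := (· ∈ normalizer (P : Set G))) (by simp)]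
      · refine Finset.sum_congr rfl fun n _ => ?_
        rw [← coe_cH, Ind.extendByZero_coe]
      · intro x _ hx
        by_cases hm : x * c * x⁻¹ ∈ centralizer (P : Set G)
        · exact h.mem_normalizer c.2 (by rwa [orderOf_coe]) hm
        · exact absurd (Ind.extendByZero_of_notMem _ _ hm) hx
    rw [this, map_mul, map_inv₀, map_natCast, map_sum, ← Finset.mul_sum]
    ring
  · simp [hu c hc]

theorem stabI_tw {θ : IrrCharacter (centralizer (P : Set G))} (hθ : KerP θ) {lam : P →* ℂˣ}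
    (hl : lam ≠ 1) : stabI (tw h.toAbSyl lam θ) = centralizer (P : Set G) :=
  le_antisymm (fun _ ⟨hn, e⟩ => h.abFrob.free (n := ⟨_, hn⟩) hl (hθ.eq_of_cI_tw e).symm)
    (le_stabI _)

/-- A character of small degree has a twin agreeing with it on the regular elements. -/
theorem exists_agree {ψ : IrrCharacter G} (hk : ¬ P ≤ charKer ψ.1)
    (hd : charDegree ψ.1 + 1 < Nat.card P) : (∃ lam μ : NT P, ¬ LRel lam.1 μ.1) ∧
      ∃ ψ' : IrrCharacter G, ψ' ≠ ψ ∧ ∀ g, ¬ p ∣ orderOf g → ψ'.1 g = ψ.1 g := by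
  have hψ := isChar_res (centralizer (P : Set G)) (irr_isChar ψ)
  obtain ⟨x, hx, hx'⟩ := SetLike.not_le_iff_exists.1 hk
  obtain ⟨ξ, h1, h2, h3⟩ : ∃ ξ, IsIrrCharacter _ ξ ∧
      classInner (fun c : centralizer (P : Set G) => ψ.1 c) ξ ≠ 0 ∧
      (⟨x, h.comm hx⟩ : centralizer (P : Set G)) ∉ charKer ξ := by
    by_contra! e
    exact hx' ((mem_charKer_iff (irr_isChar ψ)).2 ((mem_charKer_iff hψ).1
      (mem_charKer_of_forall_constituent (isChar_classFun hψ) e)))
  obtain ⟨lam, θ, hθ, e⟩ := h.toAbSyl.exists_tw ⟨ξ, h1⟩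
  obtain rfl : ξ = (tw h.toAbSyl lam θ).1 := congrArg Subtype.val e
  have hl : lam ≠ 1 := by
    rintro rfl
    rw [tw_one] at h3
    exact h3 (hθ.le_charKer hx)
  have key : ∀ μ, classInner (fun c : centralizer (P : Set G) => ψ.1 c) (tw h.toAbSyl μ θ).1 ≠ 0 →
      classInner (fun x : P => ψ.1 x) (lc μ) ≠ 0 := fun μ hμ => by
    obtain ⟨η, hη, e⟩ := Constit.exists_add_of_inner_ne_zero hψ (tw h.toAbSyl μ θ).2 hμ
    rw [show (fun x : P => ψ.1 x) = (fun x : P => (tw h.toAbSyl μ θ).1 (inclusion h.comm x)) +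
      fun x : P => η (inclusion h.comm x) from funext fun x => congrFun e (inclusion h.comm x)]
    refine Constit.inner_add_ne_zero_left (isChar_comp _ (irr_isChar _)) (isChar_comp _ hη)
      (isChar_linear μ) ?_
    rw [show (fun x : P => (tw h.toAbSyl μ θ).1 (inclusion h.comm x)) = θ.1 1 • lc μ from
      funext fun x => by rw [hθ.tw_inclusion]; simp [lc, mul_comm], classInner_smul_left,
      inner_lc, if_pos rfl, mul_one]
    exact irr_one_ne_zero θ
  obtain ⟨μ, hμ, h4⟩ : ∃ μ : P →* ℂˣ, μ ≠ 1 ∧ classInner (fun x : P => ψ.1 x) (lc μ) = 0 := by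
    by_contra! e
    exact absurd (h.toAbSyl.card_le_degree (irr_isChar ψ) e) (by omega)
  have hrel : ¬ LRel lam μ := by
    rintro ⟨n, rfl⟩
    refine key lam h2 ?_
    rw [← classInner_comp_surjective (cP n) (Finite.surjective_of_injective (cP_injective n)),
      ← h4]
    congr 1
    exact funext fun x => nInv_res (irr_classFun ψ) n x
  refine ⟨⟨⟨lam, hl⟩, ⟨μ, hμ⟩, hrel⟩, ?_⟩
  have hv : ∀ c : centralizer (P : Set G), ¬ p ∣ orderOf c →
      ((tw h.toAbSyl lam θ).1 - (tw h.toAbSyl μ θ).1) c = 0 := fun c hc => by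
    rw [Pi.sub_apply, tw_of_regular _ _ _ hc, tw_of_regular _ _ _ hc, sub_self]
  have hreg : ∀ g : G, ¬ p ∣ orderOf g →
      indFun _ ((tw h.toAbSyl lam θ).1 - (tw h.toAbSyl μ θ).1) g = 0 := fun g hg =>
    Ind.indFun_eq_zero_of_forall _ _ fun x hx => hv _ (by
      rw [← orderOf_coe]
      rwa [show orderOf (x⁻¹ * g * x) = orderOf g from (MulAut.conj x).symm.orderOf_eq g])
  have hr1 : ¬ CRel (tw h.toAbSyl lam θ) (tw h.toAbSyl μ θ) := fun ⟨n, e⟩ =>
    hrel ⟨n, hθ.eq_of_cI_tw e⟩
  obtain ⟨χ₁, χ₂, e1, e2, e3, e4⟩ := Coh.vc_norm_two_sub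
    (IndRep.isGenChar_indFun _ (isGenChar_sub (irr_isGenChar (tw h.toAbSyl lam θ))
      (irr_isGenChar (tw h.toAbSyl μ θ)))) (Coh.rin_eq_of_ci (by
      rw [h.inner_indFun hv]
      have : ∀ n, (fun c => ((tw h.toAbSyl lam θ).1 - (tw h.toAbSyl μ θ).1) (cH n c)) =
        (fun c => (tw h.toAbSyl lam θ).1 (cH n c)) - fun c => (tw h.toAbSyl μ θ).1 (cH n c) :=
        fun n => rfl
      simp only [this, classInner_sub_left, classInner_sub_right, Finset.sum_sub_distrib,
        sum_inner_cI, if_pos (equivalence_cRel.refl _), if_neg hr1,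
        if_neg (mt equivalence_cRel.symm hr1), h.stabI_tw hθ hl, h.stabI_tw hθ hμ]
      field_simp [card_ne_zero]
      norm_num
      ring)) (hreg 1 (by simpa using h.prime.one_lt.ne'))
  have h5 : classInner ψ.1 (χ₁ - χ₂) ≠ 0 := by
    rw [← e4, Ind.inner_indFun_right _ _ (irr_classFun ψ), classInner_sub_right,
      of_not_not (mt (key μ) (not_not.2 h4)), sub_zero]
    exact h2
  have h6 : ∀ g : G, ¬ p ∣ orderOf g → χ₁ g = χ₂ g := fun g hg => by
    have := hreg g hg
    rwa [e4, Pi.sub_apply, sub_eq_zero] at this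
  by_cases a : ψ.1 = χ₁
  · exact ⟨⟨χ₂, e2⟩, fun e => e3 (a.symm.trans (congrArg Subtype.val e).symm),
      fun g hg => by rw [a, h6 g hg]⟩
  · have b : ψ.1 = χ₂ := by
      by_contra b
      exact h5 (by rw [classInner_sub_right, classInner_isIrr_ne ψ.2 e1 a,
        classInner_isIrr_ne ψ.2 e2 b, sub_zero])
    exact ⟨⟨χ₁, e1⟩, fun e => a (congrArg Subtype.val e).symm, fun g hg => by rw [b]; exact h6 g hg⟩

theorem le_centralizer (hg : normalClosure (P : Set G) = ⊤) {ψ : IrrCharacter G}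
    (hk : ¬ P ≤ charKer ψ.1) (hd : charDegree ψ.1 ^ 2 + 1 < Nat.card P) :
    normalizer (P : Set G) ≤ centralizer (P : Set G) := by
  obtain ⟨M, hM⟩ := exists_isPModular h.prime
  obtain ⟨h2, ψ', hne, hag⟩ := h.exists_agree hk (by nlinarith)
  have hf := h.abFrob
  obtain ⟨δ, d, ζ, a, hδ, hD⟩ := (hf.excSys hM).exists_data hM isPBlock_principalBlock h2
  have hδ0 : δ ≠ 0 := by omega
  obtain ⟨h1, ha1⟩ := hf.one_mem hD hδ0 h2
  have hr1 : ¬ p ∣ orderOf (1 : G) := by simpa using h.prime.one_lt.ne'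
  have hc := isChar_conj (irr_isChar ψ)
  have hX : principalBlock M G \ Set.range ζ = {oneIrr G} := by
    refine Set.eq_singleton_iff_unique_mem.2 ⟨⟨oneIrr_mem_principalBlock hM, h1⟩, fun φ hφ => ?_⟩
    have hv : ∀ x : P, x ≠ 1 → φ.1 x = a φ := fun x hx => hf.valX hM hD hφ hx
      (isPPart_self h.prime (exists_orderOf_eq_pow_of_mem h.prime h.pg x.2))
    refine eq_one_of_gen hg (h.toAbSyl.le_charKer_of_const (irr_isChar φ) hv ?_)
    have h3 := inner_eq_zero_of_supp (p := p)
      (α := (ψ.1 * fun g => conj (ψ.1 g)) - ψ'.1 * fun g => conj (ψ.1 g))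
      (β := φ.1 - (a φ) • fun _ => 1) (fun g hg => by simp [hag g hg]) (fun g hg => by
        have := h.toAbSyl.rep_ne_one hg
        simp [hf.const hM hφ.1 this (h.toAbSyl.isConj_rep g), hv _ this])
    rw [classInner_sub_right, classInner_zsmul_right, classInner_sub_left, classInner_sub_left,
      ← classInner_eq_one_right, ← classInner_eq_one_right, classInner_irr_self,
      classInner_irr_ne hne, sub_zero, mul_one, sub_eq_zero] at h3
    have h4 : ∀ χ : IrrCharacter G, χ.1 1 = ψ.1 1 →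
        classInner (χ.1 * fun g => conj (ψ.1 g)) φ.1 ≠ 0 →
        charDegree φ.1 + 1 < Nat.card P := fun χ e1 e2 => by
      have := Constit.degree_le_of_inner_ne_zero (isChar_mul (irr_isChar χ) hc) φ.2 e2
        (a := charDegree ψ.1 ^ 2) (by simp [e1, ← irr_degree_cast ψ, sq]) (irr_degree_cast φ).symm
      omega
    by_contra h5
    rw [of_not_not (mt (h4 ψ rfl) h5), of_not_not (mt (h4 ψ' (hag 1 hr1)) h5), sub_zero] at h3
    exact hD.a_ne φ hφ.1 hφ.2 (by exact_mod_cast h3.symm)
  obtain ⟨lam, μ, h3⟩ := h2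
  have h4 := hD.norm'
  have h5 := hD.rel' hδ0 lam hr1
  simp only [hX, Set.mem_singleton_iff, Finset.filter_eq', Finset.mem_univ, if_true,
    Finset.sum_singleton, ha1] at h4 h5
  have h6 : 1 < Nat.card (Set.range ζ) := Finite.one_lt_card_iff_nontrivial.2
    ⟨⟨_, lam, rfl⟩, ⟨_, μ, rfl⟩, fun e => h3 ((hD.eq_iff _ _).1 (congrArg Subtype.val e))⟩
  rw [← irr_degree_cast] at h5
  have h7 : ((Nat.card (Set.range ζ) : ℤ) * d - δ) * -charDegree (ζ lam).1 = 1 := by
    have : ((Nat.card (Set.range ζ) : ℂ) * d - δ) * -charDegree (ζ lam).1 = 1 := by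
      simp only [oneIrr, Int.cast_one, mul_one] at h5
      linear_combination -h5
    exact_mod_cast this
  generalize Nat.card (Set.range ζ) = t at h4 h6 h7
  have h8 := (Int.eq_one_or_neg_one_of_mul_eq_one' h7).resolve_left (by omega)
  rw [← relIndex_eq_one]
  have h9 : (2 : ℤ) ≤ t := by exact_mod_cast h6
  rcases hδ with rfl | rfl
  · obtain rfl : d = 0 := (mul_eq_zero.1 (by linarith [h8.1] : (t : ℤ) * d = 0)).resolve_left
      (by omega)
    have : ((centralizer (P : Set G)).relIndex (normalizer (P : Set G)) : ℤ) = 1 := by linarith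
    exact_mod_cast this
  · have h10 : d < 0 := by nlinarith [h8.1]
    obtain rfl : d = -1 := by nlinarith [h8.1]
    have : ((centralizer (P : Set G)).relIndex (normalizer (P : Set G)) : ℤ) = 1 := by
      linarith [h8.1]
    exact_mod_cast this

theorem ti (g : G) (hg : g ∉ normalizer (P : Set G)) : P ⊓ MulAut.conj g • P = ⊥ := by
  refine eq_bot_iff.2 fun x ⟨h1, h2⟩ => of_not_not fun hx => hg (inv_mem_iff.1
    (h.mem_normalizer (h.comm h1) ?_ (h.comm ?_)))
  · obtain ⟨k, hk⟩ := exists_orderOf_eq_pow_of_mem h.prime h.pg h1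
    rw [hk]
    exact dvd_pow_self _ (by rintro rfl; exact hx (orderOf_eq_one_iff.1 hk))
  · simpa using (mem_pointwise_smul_iff_inv_smul_mem.1 h2)

theorem subgroupOf {H : Subgroup G} (hH : P ≤ H) : Star p (P.subgroupOf H) where
  prime := h.prime
  pg := h.pg.comap_subtype
  ind := h.toAbSyl.not_dvd_relIndex H hH
  comm x hx y hy := Subtype.ext (h.comm hx y hy)
  star x hx h1 c hc y hy := Subtype.ext (h.star x hx (fun e => h1 (Subtype.ext e))
    (mem_centralizer_singleton_iff.2 (congrArg Subtype.val (mem_centralizer_singleton_iff.1 hc)))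
    y hy)

end Star

theorem AbSyl.normalClosure_subgroupOf (h : AbSyl p P)
    (h' : AbSyl p (P.subgroupOf (normalClosure (P : Set G)))) :
    normalClosure (P.subgroupOf (normalClosure (P : Set G)) : Set (normalClosure (P : Set G))) =
      ⊤ := by
  refine eq_top_iff.2 fun ⟨g, hg⟩ _ => ?_
  induction hg using closure_induction with
  | mem g hg =>
    obtain ⟨x, hx, hc⟩ := Group.mem_conjugatesOfSet_iff.1 hg
    obtain ⟨y, hy⟩ := h'.exists_conj_mem (u := ⟨g, subset_closure hg⟩) (by
      obtain ⟨k, hk⟩ := exists_orderOf_eq_pow_of_mem h.prime h.pg hx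
      obtain ⟨c, rfl⟩ := isConj_iff.1 hc
      exact ⟨k, (orderOf_coe _).symm.trans (((MulAut.conj c).orderOf_eq x).trans hk)⟩)
    simpa using normalClosure_normal.mem_comm (subset_normalClosure hy)
  | one => exact one_mem _
  | mul a b ha hb ha' hb' => exact mul_mem (ha' trivial) (hb' trivial)
  | inv a ha ha' => exact inv_mem (ha' trivial)

theorem star_sylow [hp : Fact p.Prime] (P : Sylow p G)
    (h : ∀ x ∈ (P : Subgroup G), x ≠ 1 →
      centralizer ({x} : Set G) = centralizer ((P : Subgroup G) : Set G)) :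
    Star p (P : Subgroup G) where
  prime := hp.out
  pg := P.isPGroup'
  ind := P.not_dvd_index
  comm x hx := by
    by_cases e : x = 1
    · rw [e]; exact one_mem _
    · rw [← h x hx e]; exact mem_centralizer_singleton_iff.2 rfl
  star x hx e := (h x hx e).le

theorem Star.le_center [hp : Fact p.Prime] {P : Sylow p G} (h : Star p (P : Subgroup G))
    (hg : normalClosure ((P : Subgroup G) : Set G) = ⊤) {χ : G → ℂ} (hχ : IsCharacter G χ)
    (hf : ∀ g, χ g = χ 1 → g = 1) (hd : charDegree χ ^ 2 + 1 < Nat.card P) :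
    (P : Subgroup G) ≤ center G := by
  intro x hx
  by_cases e : x = 1
  · rw [e]; exact one_mem _
  obtain ⟨ψ, h1, h2, h3⟩ : ∃ ψ, IsIrrCharacter G ψ ∧ classInner χ ψ ≠ 0 ∧ x ∉ charKer ψ := by
    by_contra! e'
    exact e (hf x ((mem_charKer_iff hχ).1
      (mem_charKer_of_forall_constituent (isChar_classFun hχ) e')))
  have h4 := Constit.degree_le_of_inner_ne_zero hχ h1 h2 (charDegree_cast hχ).symm
    (charDegree_cast (isIrr_isChar h1)).symm
  have h5 := h.le_centralizer hg (ψ := ⟨ψ, h1⟩) (fun e => h3 (e hx))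
    (lt_of_le_of_lt (Nat.succ_le_succ (Nat.pow_le_pow_left h4 2)) hd)
  exact Isaacs.ti_central P h.ti le_rfl hχ hf (charDegree_cast hχ).symm (by omega)
    (le_normalizer hx) fun g hg => commutatorElement_eq_one_iff_mul_comm.2 (h5 hg x hx).symm

theorem Star.normal [hp : Fact p.Prime] {P : Sylow p G} (h : Star p (P : Subgroup G))
    {χ : G → ℂ} (hχ : IsCharacter G χ) (hf : ∀ g, χ g = χ 1 → g = 1)
    (hd : charDegree χ ^ 2 + 1 < Nat.card P) : (P : Subgroup G).Normal := by
  have h1 := h.subgroupOf le_normalClosure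
  have h2 := Star.le_center (P := P.subtype le_normalClosure) h1
    (h.toAbSyl.normalClosure_subgroupOf h1.toAbSyl) (isChar_res _ hχ)
    (fun g hg => Subtype.ext (hf g hg)) (by
      rw [Sylow.coe_subtype, Nat.card_congr (subgroupOfEquivOfLe le_normalClosure).toEquiv]
      exact hd)
  refine ⟨fun x hx g => h.toAbSyl.mem_of_normalizer ?_ (centralizer_le_normalizer _ fun y hy => ?_)⟩
  · rw [show orderOf (g * x * g⁻¹) = orderOf x from (MulAut.conj g).orderOf_eq x]
    exact exists_orderOf_eq_pow_of_mem h.prime h.pg hx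
  · exact (congrArg Subtype.val (mem_center_iff.1 (h2 (x := ⟨y, le_normalClosure hy⟩) hy)
      ⟨_, normalClosure_normal.conj_mem _ (le_normalClosure hx) g⟩)).symm

end Cfsg.Agent.Block
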