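import Mathlib
import Cfsg.Agent.Block.BasicAlg

/-! Central idempotents generating a two-sided ideal of minimal dimension. -/

namespace Cfsg.Agent.Block

open Cfsg Cfsg.Agent.Char MonoidAlgebra Subgroup Module MulAction
open scoped _root_.Classical

variable {k G : Type*} [Field k] [Group G] {p : ℕ}

/-- The two-sided action of `G × G` on `G`. -/
@[reducible] def biAct (G : Type*) [Group G] : MulAction (G × G) G where
  smul a x := a.1 * x * a.2⁻¹
  one_smul x := by change 1 * x * 1⁻¹ = x; group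
  mul_smul a b x := by
    change a.1 * b.1 * x * (a.2 * b.2)⁻¹ = a.1 * (b.1 * x * b.2⁻¹) * a.2⁻¹
    group

/-- The two-sided action of `G × G` on the group algebra. -/
@[reducible] noncomputable def biActA (k G : Type*) [Field k] [Group G] :
    DistribMulAction (G × G) (MonoidAlgebra k G) where
  smul a y := single a.1 1 * y * single a.2⁻¹ 1
  one_smul y := by
    change single 1 1 * y * single 1⁻¹ 1 = y
    rw [inv_one, ← one_def, one_mul, mul_one]
  mul_smul a b y := by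
    change single (a.1 * b.1) 1 * y * single (a.2 * b.2)⁻¹ 1 =
      single a.1 1 * (single b.1 1 * y * single b.2⁻¹ 1) * single a.2⁻¹ 1
    simp only [← mul_assoc, single_mul_single, mul_one]
    simp only [mul_assoc, single_mul_single, mul_one, mul_inv_rev]
  smul_zero a := by change _ * 0 * _ = 0; rw [mul_zero, zero_mul]
  smul_add a x y := by change _ * (x + y) * _ = _ * x * _ + _ * y * _; rw [mul_add, add_mul]

attribute [local instance] biAct biActA

theorem bi_def (a : G × G) (x : G) : a • x = a.1 * x * a.2⁻¹ := rfl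

theorem biA_def (a : G × G) (y : MonoidAlgebra k G) :
    a • y = single a.1 1 * y * single a.2⁻¹ 1 := rfl

theorem coeff_bi (a : G × G) (y : MonoidAlgebra k G) (x : G) :
    (a • y).coeff (a • x) = y.coeff x := by
  simp [bi_def, biA_def, mul_assoc]

theorem bi_single (a : G × G) (x : G) : a • (single x 1 : MonoidAlgebra k G) = single (a • x) 1 := by
  simp [bi_def, biA_def, single_mul_single]

variable [Finite G]

theorem IsCentral.mul_bi {e : MonoidAlgebra k G} (he : IsCentral e) (a : G × G)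
    (y : MonoidAlgebra k G) : e * a • y = a • (e * y) := by
  rw [biA_def, biA_def, ← mul_assoc, ← mul_assoc, (he.commute _).eq, mul_assoc _ e]

variable [Fact p.Prime] {L : Subgroup (G × G)} {e y : MonoidAlgebra k G}

theorem exists_bi_fixed (hp : (p : k) = 0) (hL : IsPGroup p L) (he : IsCentral e)
    (hy : ∀ a ∈ L, a • y = y) {g : G} (hg : ∀ a ∈ L, a • g = g) (h : (e * y).coeff g ≠ 0) :
    ∃ x, y.coeff x ≠ 0 ∧ e.coeff (g * x⁻¹) ≠ 0 ∧ ∀ a ∈ L, a • x = x := by
  have := Fintype.ofFinite G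
  rw [coeff_mul_right, sum_eq_sum_fixedPoints hp hL _ fun a x => ?_] at h
  · obtain ⟨x, hx, h1⟩ := Finset.exists_ne_zero_of_sum_ne_zero h
    exact ⟨x, right_ne_zero_of_mul h1, left_ne_zero_of_mul h1,
      fun a ha => (Finset.mem_filter.1 hx).2 ⟨a, ha⟩⟩
  · rw [Subgroup.smul_def, ← he (g * x⁻¹) a.1.1, ← coeff_bi a.1 y x, hy _ a.2]
    conv_lhs => rw [← hg _ a.2]
    congr 2
    simp only [bi_def]
    group

theorem exists_bi_inv (hp : (p : k) = 0) (hL : IsPGroup p L) {W : Submodule k (MonoidAlgebra k G)}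
    (hW : ∀ a ∈ L, ∀ y ∈ W, a • y ∈ W) (h0 : W ≠ ⊥) : ∃ w ∈ W, w ≠ 0 ∧ ∀ a ∈ L, a • w = w := by
  let _ : DistribMulAction L W :=
    { smul := fun a w => ⟨a.1 • w.1, hW _ a.2 _ w.2⟩
      one_smul := fun w => Subtype.ext (one_smul (G × G) w.1)
      mul_smul := fun a b w => Subtype.ext (mul_smul a.1 b.1 w.1)
      smul_zero := fun a => Subtype.ext (smul_zero a.1)
      smul_add := fun a x y => Subtype.ext (smul_add a.1 x.1 y.1) }
  obtain ⟨v, hv, h1⟩ := (Submodule.ne_bot_iff _).1 h0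
  obtain ⟨w, hw, h2⟩ := exists_fixed_ne_zero hL (W := W) (fun w => by
    rw [← Nat.cast_smul_eq_nsmul k, hp, zero_smul]) (v := ⟨v, hv⟩) (by simpa using h1)
  exact ⟨w, w.2, by simpa using hw, fun a ha => congrArg Subtype.val (h2 ⟨a, ha⟩)⟩

variable (k) in
/-- The elements supported on `X`. -/
noncomputable def suppIn (X : Set G) : Submodule k (MonoidAlgebra k G) :=
  Submodule.span k (basis G k '' X)

omit [Finite G] in
theorem mem_suppIn {X : Set G} : y ∈ suppIn k X ↔ ∀ x, y.coeff x ≠ 0 → x ∈ X :=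
  (basis G k).mem_span_image.trans ⟨fun h _ hx => h (Finsupp.mem_support_iff.2 hx),
    fun h _ hx => h _ (Finsupp.mem_support_iff.1 hx)⟩

theorem finrank_suppIn (X : Set G) : finrank k (suppIn k X) = X.ncard := by
  have := Fintype.ofFinite X
  rw [suppIn, Set.image_eq_range, ← Nat.card_coe_set_eq, Nat.card_eq_fintype_card]
  exact finrank_span_eq_card ((basis G k).linearIndependent.comp _ Subtype.val_injective)

omit [Finite G] in
theorem bi_mem_suppIn {g : G} {a : G × G} (ha : a ∈ L) (hy : y ∈ suppIn k (orbit L g)) :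
    a • y ∈ suppIn k (orbit L g) := mem_suppIn.2 fun x hx => by
  rw [← smul_inv_smul a x, coeff_bi] at hx
  obtain ⟨b, hb⟩ := mem_suppIn.1 hy _ hx
  exact ⟨⟨a, ha⟩ * b, by
    change (a * b.1) • g = x
    rw [mul_smul, show b.1 • g = a⁻¹ • x from hb, smul_inv_smul]⟩

theorem exists_orbit_inj (hp : (p : k) = 0) (hL : IsPGroup p L) (he : IsCentral e)
    (hy : ∀ a ∈ L, a • y = y) (h0 : e * y ≠ 0) :
    ∃ g, y.coeff g ≠ 0 ∧ ∀ z ∈ suppIn k (orbit L g), e * z = 0 → z = 0 := by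
  by_contra! H
  have := Fintype.ofFinite (orbitRel.Quotient L G)
  have h1 : ∀ g, e * trunc (orbit L g) y = 0 := fun g => by
    have hc : ∀ w : MonoidAlgebra k G, (∀ a ∈ L, a • w = w) → ∀ x ∈ orbit L g,
        w.coeff x = w.coeff g := by
      rintro w hw - ⟨a, rfl⟩
      rw [← coeff_bi a.1 w g, hw _ a.2]
      rfl
    by_cases hg : y.coeff g = 0
    · have : trunc (orbit L g) y = 0 := by
        ext x
        rw [coeff_trunc]
        split_ifs with hx
        · exact (hc y hy x hx).trans hg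
        · rfl
      rw [this, mul_zero]
    obtain ⟨z, hz, h2, h3⟩ := H g hg
    obtain ⟨w, hw, h4, h5⟩ := exists_bi_inv hp hL
      (W := suppIn k (orbit L g) ⊓ LinearMap.ker (LinearMap.mulLeft k e))
      (fun a ha v hv => ⟨bi_mem_suppIn ha hv.1, by
        change e * _ = 0
        rw [he.mul_bi, show e * v = 0 from hv.2, smul_zero]⟩)
      ((Submodule.ne_bot_iff _).2 ⟨z, ⟨hz, h2⟩, h3⟩)
    have h6 : w.coeff g ≠ 0 := fun h => h4 (by
      ext x
      by_contra h7
      exact h7 ((hc w h5 x (mem_suppIn.1 hw.1 x h7)).trans h))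
    have : trunc (orbit L g) y = (y.coeff g / w.coeff g) • w := by
      ext x
      rw [coeff_trunc, coeff_smul, Finsupp.smul_apply, smul_eq_mul]
      split_ifs with hx
      · rw [hc y hy x hx, hc w h5 x hx, div_mul_cancel₀ _ h6]
      · rw [not_not.1 (mt (mem_suppIn.1 hw.1 x) hx), mul_zero]
    rw [this, mul_smul_comm, show e * w = 0 from hw.2, smul_zero]
  have h2 : y = ∑ q : orbitRel.Quotient L G, trunc (orbit L q.out) y := by
    ext x
    rw [coeff_sum, Finsupp.finsetSum_apply, Finset.sum_eq_single (Quotient.mk _ x)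
      (fun q _ hq => coeff_trunc_of_notMem _ fun hx => hq (by
        rw [← q.out_eq]; exact (Quotient.sound hx).symm)) (by simp), coeff_trunc_of_mem]
    exact Quotient.exact (Quotient.out_eq (Quotient.mk (orbitRel L G) x)).symm
  rw [h2, Finset.mul_sum] at h0
  exact h0 (Finset.sum_eq_zero fun q _ => h1 _)

theorem exists_mem_of_min_dim (hp : (p : k) = 0) {S D Q : Subgroup G} (hS : IsPGroup p S)
    (he : IsCentral e) (hee : e * e = e) (hDS : D ≤ S) (hQS : Q ≤ S) (hD : br D e ≠ 0)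
    (hQ : br Q e ≠ 0) 
    (hmax : ∀ R : Subgroup G, IsPGroup p R → br R e ≠ 0 → Nat.card R ≤ Nat.card D)
    (hdim : finrank k (LinearMap.range (LinearMap.mulLeft k e)) * Nat.card D ≤ Nat.card S ^ 2)
    {x : G} (hx : x ∈ normalizer (Q : Set G)) : ∃ s ∈ S, s * x ∈ centralizer (Q : Set G) := by
  have hΓ : IsPGroup p (S.prod S) := by
    obtain ⟨n, hn⟩ := hS.exists_card_eq
    exact .of_card (n := n + n) (by
      rw [Nat.card_congr (S.prodEquiv S).toEquiv, Nat.card_prod, hn, pow_add])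
  obtain ⟨c, hc, hc0⟩ := br_ne_zero_iff.1 hD
  obtain ⟨c', hc', hc0'⟩ := br_ne_zero_iff.1 hQ
  obtain ⟨-, ⟨w, rfl⟩, h1, h2⟩ := exists_bi_inv hp hΓ
    (W := LinearMap.range (LinearMap.mulLeft k e))
    (by rintro a - - ⟨y, rfl⟩; exact ⟨a • y, he.mul_bi a y⟩)
    ((Submodule.ne_bot_iff _).2 ⟨e, ⟨1, mul_one e⟩, fun h => hc0 (by rw [h]; rfl)⟩)
  rw [LinearMap.mulLeft_apply] at h1 h2
  have h3 : e * (e * w) = e * w := by rw [← mul_assoc, hee]
  obtain ⟨g, hg, hinj⟩ := exists_orbit_inj hp hΓ he h2 (by rwa [h3])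
  have hcard : ∀ g : G, Nat.card (S.prod S ⊓ stabilizer (G × G) g : Subgroup _) *
      (orbit (S.prod S) g).ncard = Nat.card S ^ 2 := fun g => by
    rw [← index_stabilizer, inf_comm, ← subgroupOf_map_subtype, card_subtype, sq, ← Nat.card_prod,
      ← Nat.card_congr (S.prodEquiv S).toEquiv]
    exact card_mul_index _
  have h4 : Nat.card (S.prod S ⊓ stabilizer (G × G) g : Subgroup _) ≤ Nat.card D := by
    obtain ⟨x, -, h5, h6⟩ := exists_bi_fixed hp (hΓ.to_le inf_le_left) he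
      (L := S.prod S ⊓ stabilizer (G × G) g) (fun a ha => h2 a ha.1) (fun a ha => ha.2)
      (by rwa [h3])
    have h7 := hmax _ ((hΓ.to_le (inf_le_left (b := stabilizer (G × G) g))).map
      (MonoidHom.fst G G)) (br_ne_zero_iff.2 ⟨_, mem_centralizer_iff.2 (by
        rintro - ⟨a, ha, rfl⟩
        have e1 : a.1 * g * a.2⁻¹ = g := ha.2
        have e2 : a.1 * x * a.2⁻¹ = x := h6 a ha
        calc a.1 * (g * x⁻¹) = a.1 * g * a.2⁻¹ * (a.1 * x * a.2⁻¹)⁻¹ * a.1 := by group
          _ = g * x⁻¹ * a.1 := by rw [e1, e2]), h5⟩)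
    refine le_of_eq_of_le (Nat.card_congr (Equiv.ofBijective
      ((MonoidHom.fst G G).subgroupMap _) ⟨fun a b hab => ?_, MonoidHom.subgroupMap_surjective _ _⟩))
      h7
    have e0 : a.1.1 = b.1.1 := congrArg Subtype.val hab
    have e1 : a.1.1 * g * a.1.2⁻¹ = b.1.1 * g * b.1.2⁻¹ := a.2.2.trans b.2.2.symm
    rw [e0, mul_right_inj, inv_inj] at e1
    exact Subtype.ext (Prod.ext e0 e1)
  have h5 : (suppIn k (orbit (S.prod S) g)).map (LinearMap.mulLeft k e) =
      LinearMap.range (LinearMap.mulLeft k e) := by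
    refine Submodule.eq_of_le_of_finrank_le LinearMap.map_le_range ?_
    rw [← LinearMap.range_domRestrict, LinearMap.finrank_range_of_inj
      ((injective_iff_map_eq_zero _).2 fun z hz => Subtype.ext (hinj _ z.2 hz)), finrank_suppIn]
    refine Nat.le_of_mul_le_mul_right (hdim.trans ?_) (Nat.card_pos (α := D))
    rw [← hcard g, mul_comm]
    exact Nat.mul_le_mul_left _ h4
  have key : ∀ L ≤ S.prod S, ∀ z g' : G, (∀ a ∈ L, a • z = z) → (∀ a ∈ L, a • g' = g') →
      e.coeff (g' * z⁻¹) ≠ 0 → ∃ x ∈ orbit (S.prod S) g, ∀ a ∈ L, a • x = x := by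
    intro L hL z g' hz hg' h0
    obtain ⟨y, hy, h6⟩ : e * single z 1 ∈ (suppIn k (orbit (S.prod S) g)).map
      (LinearMap.mulLeft k e) := h5 ▸ ⟨_, rfl⟩
    rw [LinearMap.mulLeft_apply] at h6
    obtain ⟨x, h7, -, h8⟩ := exists_bi_fixed hp (hΓ.to_le hL) he (y := y) (fun a ha =>
      sub_eq_zero.1 (hinj _ (sub_mem (bi_mem_suppIn (hL ha) hy) hy) (by
        rw [mul_sub, he.mul_bi, h6, ← he.mul_bi, bi_single, hz a ha, sub_self]))) hg'
      (by rwa [h6, coeff_mul_single_apply, mul_one])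
    exact ⟨x, mem_suppIn.1 hy x h7, h8⟩
  obtain ⟨x₁, hx₁, h6⟩ := key (D.map ((MonoidHom.id G).prod (MonoidHom.id G)))
    (by rintro - ⟨u, hu, rfl⟩; exact ⟨hDS hu, hDS hu⟩) 1 c
    (by rintro - ⟨u, hu, rfl⟩; simp [bi_def])
    (by rintro - ⟨u, hu, rfl⟩; simp [bi_def, mem_centralizer_iff.1 hc u hu]) (by simpa using hc0)
  have h7 : D.map ((MonoidHom.id G).prod (MonoidHom.id G)) = S.prod S ⊓ stabilizer (G × G) x₁ := by
    refine eq_of_le_of_card_ge (le_inf (by rintro - ⟨u, hu, rfl⟩; exact ⟨hDS hu, hDS hu⟩) h6) ?_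
    rw [card_map_of_injective fun a b h => congrArg Prod.fst h]
    have h8 := (hcard x₁).trans (hcard g).symm
    rw [orbit_eq_iff.2 hx₁, mul_left_inj'
      ((Set.ncard_pos (Set.toFinite _)).2 (nonempty_orbit _)).ne'] at h8
    exact h8.trans_le h4
  obtain ⟨x₂, hx₂, h8⟩ := key (Q.map ((MulAut.conj x).toMonoidHom.prod (MonoidHom.id G)))
    (by rintro - ⟨u, hu, rfl⟩; exact ⟨hQS ((mem_normalizer_iff.1 hx u).1 hu), hQS hu⟩) x (c' * x)
    (by rintro - ⟨u, hu, rfl⟩; simp [bi_def])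
    (by
      rintro - ⟨u, hu, rfl⟩
      have := mem_centralizer_iff.1 hc' _ ((mem_normalizer_iff.1 hx u).1 hu)
      simp [bi_def, ← mul_assoc, this]) (by simpa using hc0')
  obtain ⟨a, rfl⟩ : x₂ ∈ orbit (S.prod S) x₁ := orbit_eq_iff.2 hx₁ ▸ hx₂
  refine ⟨a.1.2 * a.1.1⁻¹, mul_mem a.2.2 (inv_mem a.2.1), mem_centralizer_iff.2 fun u hu => ?_⟩
  have h9 : a.1⁻¹ * (x * u * x⁻¹, u) * a.1 ∈ S.prod S ⊓ stabilizer (G × G) x₁ :=
    mem_inf.2 ⟨mul_mem (mul_mem (inv_mem a.2)
      (mem_prod.2 ⟨hQS ((mem_normalizer_iff.1 hx u).1 hu), hQS hu⟩)) a.2, by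
      rw [mem_stabilizer_iff, mul_smul, mul_smul, inv_smul_eq_iff]
      exact h8 _ ⟨u, hu, rfl⟩⟩
  obtain ⟨v, -, h10⟩ := h7 ▸ h9
  have h11 : a.1.1⁻¹ * (x * u * x⁻¹) * a.1.1 = a.1.2⁻¹ * u * a.1.2 :=
    (congrArg Prod.fst h10).symm.trans (congrArg Prod.snd h10)
  calc u * (a.1.2 * a.1.1⁻¹ * x) = a.1.2 * (a.1.2⁻¹ * u * a.1.2) * a.1.1⁻¹ * x := by group
    _ = a.1.2 * a.1.1⁻¹ * x * u := by rw [← h11]; group

omit [Fact p.Prime] in
theorem finrank_range_eB {M : Ideal AlgInt} {B : Set (IrrCharacter G)} (hB : IsV M (blockIdem B)) :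
    finrank (F M) (LinearMap.range (LinearMap.mulLeft (F M) (eB M B))) =
      ∑ χ with χ ∈ B, charDegree χ.1 ^ 2 := by
  have h := finrank_range_idem hB isV_one (blockIdem_mul_self B) (mul_one 1)
  have h1 : LinearMap.mulLeftRight (F M) (redG M (blockIdem B), redG M 1) =
      LinearMap.mulLeft (F M) (eB M B) := LinearMap.ext fun x => by
    rw [LinearMap.mulLeftRight_apply, redG_one, mul_one]; rfl
  rw [h1] at h
  refine Nat.cast_injective (R := ℂ) (h.trans ?_)
  simp only [Nat.cast_sum, Nat.cast_pow, irr_degree_cast, Finset.sum_filter, Nat.cast_ite,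
    Nat.cast_zero]
  refine Finset.sum_congr rfl fun χ _ => ?_
  rw [← mul_one (blockIdem B)]
  split_ifs with hχ
  · rw [lin_blockIdem_mul_of_mem hχ, lin_one, sq]
  · rw [lin_blockIdem_mul_of_notMem hχ, zero_mul]

end Cfsg.Agent.Block
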