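import Mathlib

/-! Theta series of a positive definite integral lattice: the functional equation. -/

namespace Cfsg.Agent.Block.Theta

open Matrix Complex Finset
open scoped Real

variable {n : ℕ}

theorem exists_diag (B : Matrix (Fin n) (Fin n) ℤ) (hsymm : B.IsSymm)
    (hpos : ∀ x : Fin n → ℤ, x ≠ 0 → 0 < x ⬝ᵥ (B *ᵥ x)) :
    ∃ (M : Matrix (Fin n) (Fin n) ℤ) (d : Fin n → ℤ), (∀ i, 0 < d i) ∧
      Mᵀ * B * M = diagonal d := by
  classical
  let Bq : Matrix (Fin n) (Fin n) ℚ := B.map (Int.castRingHom ℚ)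
  let F : LinearMap.BilinForm ℚ (Fin n → ℚ) := Matrix.toBilin' Bq
  have hF : F.IsSymm := by
    constructor
    intro x y
    simp only [F, Matrix.toBilin'_apply', RingHom.id_apply]
    rw [dotProduct_mulVec, dotProduct_comm, ← mulVec_transpose]
    congr 2
    ext i j
    simp [Bq, hsymm.apply]
  haveI : Invertible (2 : ℚ) := invertibleOfNonzero two_ne_zero
  obtain ⟨v, hv⟩ := LinearMap.BilinForm.exists_orthogonal_basis (LinearMap.BilinForm.isSymm_iff.1 hF)
  have hn : Module.finrank ℚ (Fin n → ℚ) = n := by simp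
  let w : Fin n → Fin n → ℚ := fun i => v (Fin.cast hn.symm i)
  have hw0 : ∀ i, w i ≠ 0 := fun i => v.ne_zero _
  have hwo : ∀ i j, i ≠ j → w i ⬝ᵥ (Bq *ᵥ w j) = 0 := by
    intro i j hij
    have := hv (i := Fin.cast hn.symm i) (j := Fin.cast hn.symm j)
      (fun h => hij (Fin.cast_injective _ h))
    simpa [F, Matrix.toBilin'_apply', Function.onFun] using this
  obtain ⟨c, hc⟩ := IsLocalization.exist_integer_multiples_of_finite (nonZeroDivisors ℤ)
    (fun p : Fin n × Fin n => w p.1 p.2)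
  choose m hm using hc
  have hc0 : ((c : ℤ) : ℚ) ≠ 0 := by
    exact_mod_cast nonZeroDivisors.ne_zero c.2
  have hm' : ∀ i j, ((m (i, j) : ℤ) : ℚ) = (c : ℤ) * w i j := by
    intro i j
    have := hm (i, j)
    simpa using this
  let M : Matrix (Fin n) (Fin n) ℤ := Matrix.of fun a i => m (i, a)
  have hent : ∀ i j, (Mᵀ * B * M) i j = (fun a => m (i, a)) ⬝ᵥ (B *ᵥ fun a => m (j, a)) := by
    intro i j
    simp only [Matrix.mul_apply, M, transpose_apply, of_apply, dotProduct, mulVec, sum_mul,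
      mul_sum, mul_assoc]
    rw [sum_comm]
  have hcast : ∀ i j, (((fun a => m (i, a)) ⬝ᵥ (B *ᵥ fun a => m (j, a)) : ℤ) : ℚ)
      = (c : ℤ) ^ 2 * (w i ⬝ᵥ (Bq *ᵥ w j)) := by
    intro i j
    simp only [dotProduct, mulVec, Bq, map_apply, mul_sum]
    push_cast
    refine sum_congr rfl fun a _ => sum_congr rfl fun b _ => ?_
    rw [hm', hm']
    simp only [eq_intCast]
    ring
  refine ⟨M, fun i => (fun a => m (i, a)) ⬝ᵥ (B *ᵥ fun a => m (i, a)), fun i => ?_, ?_⟩
  · apply hpos
    intro h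
    apply hw0 i
    funext a
    have h1 : m (i, a) = 0 := congrFun h a
    have h2 := hm' i a
    rw [h1] at h2
    simpa [hc0] using h2.symm
  · ext i j
    rw [hent]
    by_cases hij : i = j
    · subst hij; simp
    · rw [diagonal_apply_ne _ hij]
      have := hcast i j
      rw [hwo i j hij, mul_zero] at this
      exact_mod_cast this

/-- the data of a diagonalisation -/
structure Dg (B M : Matrix (Fin n) (Fin n) ℤ) (d : Fin n → ℤ) : Prop where
  symm : B.IsSymm
  pos : ∀ i, 0 < d i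
  eq : Mᵀ * B * M = diagonal d

variable {B M : Matrix (Fin n) (Fin n) ℤ} {d : Fin n → ℤ}

/-- the coordinates -/
def co (B M : Matrix (Fin n) (Fin n) ℤ) (x : Fin n → ℤ) : Fin n → ℤ := (Mᵀ * B) *ᵥ x

theorem co_add (x y : Fin n → ℤ) : co B M (x + y) = co B M x + co B M y := mulVec_add _ _ _

theorem Dg.co_M (h : Dg B M d) (k : Fin n → ℤ) (i : Fin n) : co B M (M *ᵥ k) i = d i * k i := by
  rw [co, mulVec_mulVec, h.eq, mulVec_diagonal]

theorem Dg.dne (h : Dg B M d) (i : Fin n) : (d i : ℂ) ≠ 0 := by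
  exact_mod_cast (h.pos i).ne'

theorem Dg.inv (h : Dg B M d) :
    M.map (Int.castRingHom ℂ) * (diagonal (fun i => (d i : ℂ)⁻¹) *
      (Mᵀ * B).map (Int.castRingHom ℂ)) = 1 := by
  rw [mul_eq_one_comm, Matrix.mul_assoc, ← Matrix.map_mul, h.eq, diagonal_map (map_zero _),
    diagonal_mul_diagonal, ← diagonal_one]
  congr 1
  funext i
  simp [h.dne i]

theorem Dg.recover (h : Dg B M d) (x : Fin n → ℤ) (a : Fin n) :
    (x a : ℂ) = ∑ i, (M a i : ℂ) * ((co B M x i : ℂ) / d i) := by
  have h1 := congrFun (congrArg (· *ᵥ (fun j => (x j : ℂ))) h.inv) a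
  simp only [one_mulVec] at h1
  rw [← h1, ← mulVec_mulVec, ← mulVec_mulVec]
  simp only [mulVec, dotProduct, map_apply, eq_intCast, co]
  refine sum_congr rfl fun i _ => ?_
  congr 1
  rw [sum_eq_single i]
  · simp [div_eq_inv_mul]
  · intro j _ hj; simp [diagonal_apply_ne _ hj.symm]
  · simp

theorem Dg.co_eq (h : Dg B M d) (v : Fin n → ℤ) (i : Fin n) :
    co B M v i = ∑ a, (v ᵥ* B) a * M a i := by
  simp only [co, mulVec, dotProduct, Matrix.mul_apply, transpose_apply, vecMul, sum_mul]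
  rw [sum_comm]
  refine sum_congr rfl fun a _ => sum_congr rfl fun b _ => ?_
  rw [h.symm.apply b a]
  ring

theorem Dg.bilin (h : Dg B M d) (v x : Fin n → ℤ) :
    ((v ⬝ᵥ (B *ᵥ x) : ℤ) : ℂ) = ∑ i, (co B M v i : ℂ) * ((co B M x i : ℂ) / d i) := by
  rw [dotProduct_mulVec]
  simp only [h.co_eq v, dotProduct]
  push_cast
  simp only [h.recover x, mul_sum, sum_mul, mul_assoc]
  rw [sum_comm]

theorem Dg.co_inj (h : Dg B M d) : Function.Injective (co B M) := by
  intro x y hxy
  funext a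
  have := h.recover x a
  rw [hxy, ← h.recover y a] at this
  exact_mod_cast this

theorem Dg.M_inj (h : Dg B M d) : Function.Injective (fun k : Fin n → ℤ => M *ᵥ k) := by
  intro k l hkl
  funext i
  have h1 := h.co_M k i
  have h2 := h.co_M l i
  simp only at hkl
  rw [hkl, h2] at h1
  exact (mul_left_cancel₀ (h.pos i).ne' h1).symm

theorem Dg.dual (h : Dg B M d) (hdet : B.det = 1) (m : Fin n → ℤ)
    (hm : ∀ x : Fin n → ℤ, ∃ z : ℤ, ∑ i, (m i : ℂ) * ((co B M x i : ℂ) / d i) = z) :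
    ∃ v, co B M v = m := by
  choose z hz using hm
  let w : Fin n → ℤ := fun j => z (Pi.single j 1)
  refine ⟨B.adjugate *ᵥ w, ?_⟩
  have hB : B *ᵥ (B.adjugate *ᵥ w) = w := by
    rw [mulVec_mulVec, mul_adjugate, hdet, one_smul, one_mulVec]
  funext l
  have h1 : co B M (B.adjugate *ᵥ w) l = ∑ j, M j l * w j := by
    rw [co, ← mulVec_mulVec, hB]
    simp [mulVec, dotProduct]
  have h2 : ∀ i, ∑ j, (M j l : ℂ) * co B M (Pi.single j 1) i = if i = l then (d i : ℂ) else 0 := by
    intro i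
    have h3 := congrFun (congrFun h.eq i) l
    rw [Matrix.mul_apply, diagonal_apply] at h3
    have h4 : ∑ j, M j l * co B M (Pi.single j 1) i = if i = l then d i else 0 := by
      rw [← h3]
      refine sum_congr rfl fun j _ => ?_
      simp [co, mul_comm]
    exact_mod_cast h4
  have h5 : ((∑ j, M j l * w j : ℤ) : ℂ) = m l := by
    push_cast
    simp only [w, ← hz, mul_sum]
    rw [sum_comm]
    have : ∀ i, ∑ j, (M j l : ℂ) * ((m i : ℂ) * ((co B M (Pi.single j 1) i : ℂ) / d i))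
        = if i = l then (m i : ℂ) else 0 := by
      intro i
      have h6 : ∑ j, (M j l : ℂ) * ((m i : ℂ) * ((co B M (Pi.single j 1) i : ℂ) / d i))
          = (m i : ℂ) / d i * ∑ j, (M j l : ℂ) * co B M (Pi.single j 1) i := by
        rw [mul_sum]
        exact sum_congr rfl fun j _ => by ring
      rw [h6, h2]
      split_ifs
      · field_simp [h.dne i]
      · simp
    simp [this]
  rw [h1]
  exact_mod_cast h5

end Cfsg.Agent.Block.Theta
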