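import Cfsg.Agent.Block.Theta

/-! Theta series: the functional equation. -/

namespace Cfsg.Agent.Block.Theta

open Matrix Complex Finset
open scoped Real

variable {n : ℕ}

theorem hasSum_pi : ∀ (n : ℕ) (f : Fin n → ℤ → ℂ) (s : Fin n → ℂ), (∀ i, HasSum (f i) (s i)) →
    HasSum (fun k : Fin n → ℤ => ∏ i, f i (k i)) (∏ i, s i)
  | 0, f, s, _ => by
    simpa using hasSum_single (f := fun k : Fin 0 → ℤ => (1 : ℂ)) (default : Fin 0 → ℤ)
      (fun b hb => absurd (Subsingleton.elim _ _) hb)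
  | n + 1, f, s, h => by
    have ih := hasSum_pi n (fun i => f i.succ) (fun i => s i.succ) (fun i => h i.succ)
    have h0 := h 0
    have hs := summable_mul_of_summable_norm h0.summable.norm ih.summable.norm
    have h1 := h0.mul ih hs
    rw [Fin.prod_univ_succ]
    rw [← (Fin.consEquiv (fun _ : Fin (n + 1) => ℤ)).hasSum_iff]
    have h2 : ((fun k : Fin (n + 1) → ℤ => ∏ i, f i (k i)) ∘
        (Fin.consEquiv (fun _ : Fin (n + 1) => ℤ))) =
        fun x : ℤ × (Fin n → ℤ) => f 0 x.1 * ∏ i : Fin n, f i.succ (x.2 i) := by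
      funext p
      simp [Fin.prod_univ_succ, Fin.consEquiv]
    rw [h2]
    exact h1

variable {B M : Matrix (Fin n) (Fin n) ℤ} {d : Fin n → ℤ}

/-- a term of the theta series -/
noncomputable def term (B : Matrix (Fin n) (Fin n) ℤ) (τ : ℂ) (x : Fin n → ℤ) : ℂ :=
  cexp (π * I * ((x ⬝ᵥ (B *ᵥ x) : ℤ) : ℂ) * τ)

/-- the theta series -/
noncomputable def theta (B : Matrix (Fin n) (Fin n) ℤ) (τ : ℂ) : ℂ := ∑' x, term B τ x

/-- cosets -/
abbrev Qt (M : Matrix (Fin n) (Fin n) ℤ) := (Fin n → ℤ) ⧸ LinearMap.range M.mulVecLin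

theorem Dg.finite (h : Dg B M d) : Finite (Qt M) := by
  apply Submodule.finiteQuotientOfFreeOfRankEq
  exact LinearMap.finrank_range_of_inj (f := M.mulVecLin) h.M_inj

theorem mk_eq_iff (x y : Fin n → ℤ) :
    (Submodule.Quotient.mk x : Qt M) = Submodule.Quotient.mk y ↔ ∃ k, x = y + M *ᵥ k := by
  rw [Submodule.Quotient.eq, LinearMap.mem_range]
  simp only [mulVecLin_apply]
  exact exists_congr fun k => ⟨fun h => by rw [h]; abel, fun h => by rw [h]; abel⟩

theorem mk_out (q : Qt M) : (Submodule.Quotient.mk (Quotient.out q) : Qt M) = q :=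
  Quotient.out_eq q

theorem Dg.hasSum_coset (h : Dg B M d) (r : Fin n → ℤ) {τ : ℂ} (hτ : 0 < τ.im) :
    HasSum (fun k : Fin n → ℤ => term B τ (r + M *ᵥ k))
      (∏ i, (cexp (π * I * ((co B M r i : ℂ) / d i) ^ 2 * (d i * τ)) *
        jacobiTheta₂ ((co B M r i : ℂ) / d i * (d i * τ)) (d i * τ))) := by
  have h1 : ∀ i, HasSum (fun k : ℤ => cexp (π * I * ((co B M r i : ℂ) / d i) ^ 2 * (d i * τ)) *
      jacobiTheta₂_term k ((co B M r i : ℂ) / d i * (d i * τ)) (d i * τ)) _ := fun i =>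
    (hasSum_jacobiTheta₂_term _ (by
      have : (0 : ℝ) < d i := by exact_mod_cast h.pos i
      simpa using mul_pos this hτ)).mul_left _
  convert hasSum_pi n _ _ h1 using 2 with k
  simp only [term, jacobiTheta₂_term, ← Complex.exp_add, ← Complex.exp_sum, h.bilin, co_add,
    Pi.add_apply, h.co_M, mul_sum, sum_mul]
  congr 1
  refine sum_congr rfl fun i _ => ?_
  push_cast
  field_simp [h.dne i]
  ring

theorem hasSum_of_coset (h : Dg B M d) [Fintype (Qt M)] (F : (Fin n → ℤ) → ℂ) (S : Qt M → ℂ)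
    (hF : ∀ q : Qt M, HasSum (fun k : Fin n → ℤ => F (Quotient.out q + M *ᵥ k)) (S q)) :
    HasSum F (∑ q, S q) := by
  classical
  have h1 : ∀ q : Qt M, HasSum (fun x => if (Submodule.Quotient.mk x : Qt M) = q then F x else 0)
      (S q) := by
    intro q
    have hinj : Function.Injective (fun k : Fin n → ℤ => Quotient.out q + M *ᵥ k) :=
      fun k l hkl => h.M_inj (add_left_cancel hkl)
    rw [← hinj.hasSum_iff]
    · convert hF q using 2 with k
      simp only [Function.comp]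
      rw [if_pos]
      conv_rhs => rw [← mk_out q]
      exact (mk_eq_iff _ _).2 ⟨k, rfl⟩
    · intro x hx
      rw [if_neg]
      intro hq
      rw [← mk_out q, mk_eq_iff] at hq
      obtain ⟨k, hk⟩ := hq
      exact hx ⟨k, hk.symm⟩
  have h2 := hasSum_sum (s := (univ : Finset (Qt M))) fun q _ => h1 q
  simpa using h2

theorem Dg.hasSum_term (h : Dg B M d) [Fintype (Qt M)] {τ : ℂ} (hτ : 0 < τ.im) :
    HasSum (term B τ) (∑ q : Qt M, ∏ i, (1 / (-I * (d i * τ)) ^ (1 / 2 : ℂ) *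
      jacobiTheta₂ ((co B M (Quotient.out q) i : ℂ) / d i) (-1 / (d i * τ)))) := by
  apply hasSum_of_coset h
  intro q
  convert h.hasSum_coset (Quotient.out q) hτ using 2 with i
  have hτ0 : τ ≠ 0 := by rintro rfl; simp at hτ
  have hne : (d i : ℂ) * τ ≠ 0 := mul_ne_zero (h.dne i) hτ0
  rw [jacobiTheta₂_functional_equation (_ * (d i * τ)) (d i * τ), mul_div_cancel_right₀ _ hne]
  set c : ℂ := (co B M (Quotient.out q) i : ℂ) / d i
  set t : ℂ := d i * τ
  have : cexp (π * I * c ^ 2 * t) * cexp (-π * I * (c * t) ^ 2 / t) = 1 := by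
    rw [← Complex.exp_add, ← Complex.exp_zero]
    congr 1
    field_simp
    ring
  linear_combination (-(1 / (-I * t) ^ (1 / 2 : ℂ)) * jacobiTheta₂ c (-1 / t)) * this

theorem Dg.summable (h : Dg B M d) {τ : ℂ} (hτ : 0 < τ.im) : Summable (term B τ) := by
  haveI := h.finite
  haveI := Fintype.ofFinite (Qt M)
  exact (h.hasSum_term hτ).summable

/-- the character attached to `m` -/
noncomputable def ch (B M : Matrix (Fin n) (Fin n) ℤ) (d : Fin n → ℤ) (m x : Fin n → ℤ) : ℂ :=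
  cexp (2 * π * I * ∑ i, (m i : ℂ) * ((co B M x i : ℂ) / d i))

theorem ch_add (m x y : Fin n → ℤ) : ch B M d m (x + y) = ch B M d m x * ch B M d m y := by
  simp only [ch, ← Complex.exp_add, ← mul_add, ← sum_add_distrib, co_add, Pi.add_apply]
  congr 2
  refine sum_congr rfl fun i _ => ?_
  push_cast
  ring

theorem exp_int (z : ℤ) : cexp (2 * π * I * z) = 1 := by
  rw [mul_comm]; exact exp_int_mul_two_pi_mul_I z

theorem Dg.ch_M (h : Dg B M d) (m k : Fin n → ℤ) : ch B M d m (M *ᵥ k) = 1 := by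
  rw [← exp_int (∑ i, m i * k i), ch]
  congr 2
  push_cast
  refine sum_congr rfl fun i _ => ?_
  rw [h.co_M]
  push_cast
  field_simp [h.dne i]

theorem Dg.sum_ch_in (h : Dg B M d) [Fintype (Qt M)] (v : Fin n → ℤ) :
    ∑ q : Qt M, ch B M d (co B M v) (Quotient.out q) = Fintype.card (Qt M) := by
  have : ∀ x, ch B M d (co B M v) x = 1 := fun x => by
    rw [ch, ← h.bilin, exp_int]
  simp [this]

theorem Dg.sum_ch_out (h : Dg B M d) (hdet : B.det = 1) [Fintype (Qt M)] (m : Fin n → ℤ)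
    (hm : m ∉ Set.range (co B M)) : ∑ q : Qt M, ch B M d m (Quotient.out q) = 0 := by
  have h1 : ∃ x, ch B M d m x ≠ 1 := by
    by_contra hc
    push Not at hc
    apply hm
    apply h.dual hdet m
    intro x
    have := hc x
    rw [ch, Complex.exp_eq_one_iff] at this
    obtain ⟨z, hz⟩ := this
    refine ⟨z, ?_⟩
    have h2 : (2 * π * I : ℂ) ≠ 0 := two_pi_I_ne_zero
    rw [mul_comm (z : ℂ)] at hz
    exact mul_left_cancel₀ h2 hz
  obtain ⟨x, hx⟩ := h1
  have h2 : ch B M d m x * ∑ q : Qt M, ch B M d m (Quotient.out q)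
      = ∑ q : Qt M, ch B M d m (Quotient.out q) := by
    rw [mul_sum, ← Equiv.sum_comp (Equiv.addLeft (Submodule.Quotient.mk x : Qt M))
      (fun q => ch B M d m (Quotient.out q))]
    refine sum_congr rfl fun q _ => ?_
    have h3 : (Submodule.Quotient.mk (Quotient.out (Submodule.Quotient.mk x + q : Qt M)) : Qt M)
        = Submodule.Quotient.mk (x + Quotient.out q) := by
      rw [mk_out, Submodule.Quotient.mk_add, mk_out]
    obtain ⟨k, hk⟩ := (mk_eq_iff _ _).1 h3
    simp only [Equiv.coe_addLeft]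
    rw [hk, ch_add, ch_add, h.ch_M, mul_one]
  have h3 : (ch B M d m x - 1) * ∑ q : Qt M, ch B M d m (Quotient.out q) = 0 := by
    rw [sub_mul, h2, one_mul, sub_self]
  exact (mul_eq_zero.1 h3).resolve_left (sub_ne_zero.2 hx)

theorem Dg.dual_sum (h : Dg B M d) (hdet : B.det = 1) [Fintype (Qt M)] {σ : ℂ} (hσ : 0 < σ.im) :
    ∑ q : Qt M, ∏ i, jacobiTheta₂ ((co B M (Quotient.out q) i : ℂ) / d i) (σ / d i)
      = Fintype.card (Qt M) * theta B σ := by
  have h1 : ∀ q : Qt M, HasSum (fun m : Fin n → ℤ => ch B M d m (Quotient.out q) *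
      cexp (π * I * (∑ i, (m i : ℂ) * ((m i : ℂ) / d i)) * σ))
      (∏ i, jacobiTheta₂ ((co B M (Quotient.out q) i : ℂ) / d i) (σ / d i)) := by
    intro q
    have h2 : ∀ i, HasSum (fun k : ℤ => jacobiTheta₂_term k
        ((co B M (Quotient.out q) i : ℂ) / d i) (σ / d i)) _ := fun i =>
      hasSum_jacobiTheta₂_term _ (by
        have : (0 : ℝ) < d i := by exact_mod_cast h.pos i
        have h3 : (σ / d i).im = σ.im / d i := by
          rw [← Complex.ofReal_intCast, Complex.div_ofReal_im]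
        rw [h3]
        exact div_pos hσ this)
    convert hasSum_pi n _ _ h2 using 2 with m
    simp only [ch, jacobiTheta₂_term, ← Complex.exp_add, ← Complex.exp_sum, mul_sum, sum_mul,
      ← sum_add_distrib]
    congr 1
    refine sum_congr rfl fun i _ => ?_
    ring
  have h2 := hasSum_sum (s := (univ : Finset (Qt M))) fun q _ => h1 q
  simp only [← sum_mul] at h2
  rw [← h.co_inj.hasSum_iff] at h2
  · have h3 : HasSum (fun v => (Fintype.card (Qt M) : ℂ) * term B σ v)
        (Fintype.card (Qt M) * theta B σ) := (h.summable hσ).hasSum.mul_left _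
    refine h2.unique ?_
    convert h3 using 2 with v
    simp only [Function.comp, h.sum_ch_in, term, h.bilin]
  · intro m hm
    rw [h.sum_ch_out hdet m hm, zero_mul]

theorem Dg.theta_eq (h : Dg B M d) (hdet : B.det = 1) :
    ∃ C : ℂ, ∀ τ : ℂ, 0 < τ.im →
      theta B τ = C * (1 / (-I * τ) ^ (1 / 2 : ℂ)) ^ n * theta B (-1 / τ) := by
  haveI := h.finite
  haveI := Fintype.ofFinite (Qt M)
  refine ⟨Fintype.card (Qt M) * ∏ i, cexp (-(Real.log (d i) * (1 / 2 : ℂ))), fun τ hτ => ?_⟩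
  have hτ0 : τ ≠ 0 := by rintro rfl; simp at hτ
  have hσ : 0 < (-1 / τ).im := by
    rw [div_eq_mul_inv, neg_one_mul, neg_im, inv_im, neg_div, neg_neg]
    exact div_pos hτ (normSq_pos.2 hτ0)
  rw [theta, (h.hasSum_term hτ).tsum_eq]
  simp only [prod_mul_distrib, ← mul_sum]
  have h1 : ∀ i, (-1 / (d i * τ) : ℂ) = -1 / τ / d i := fun i => by
    rw [div_div, mul_comm]
  have h2 : ∀ i, (1 / (-I * (d i * τ)) ^ (1 / 2 : ℂ) : ℂ)
      = cexp (-(Real.log (d i) * (1 / 2 : ℂ))) * (1 / (-I * τ) ^ (1 / 2 : ℂ)) := by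
    intro i
    have hd : (0 : ℝ) < d i := by exact_mod_cast h.pos i
    have h3 : -I * τ ≠ 0 := mul_ne_zero (neg_ne_zero.2 I_ne_zero) hτ0
    have h4 : -I * (d i * τ) = ((d i : ℝ) : ℂ) * (-I * τ) := by push_cast; ring
    rw [h4, cpow_def_of_ne_zero (mul_ne_zero (by exact_mod_cast hd.ne') h3),
      log_ofReal_mul hd h3, cpow_def_of_ne_zero h3, add_mul, Complex.exp_add, Complex.exp_neg]
    field_simp
  simp only [h1, h2, h.dual_sum hdet hσ, prod_mul_distrib, prod_const, card_univ, Fintype.card_fin]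
  ring

theorem Dg.diff (h : Dg B M d) (hdet : B.det = 1) {σ : ℂ} (hσ : 0 < σ.im) :
    DifferentiableAt ℂ (theta B) σ := by
  haveI := h.finite
  haveI := Fintype.ofFinite (Qt M)
  have hc : (Fintype.card (Qt M) : ℂ) ≠ 0 := by exact_mod_cast Fintype.card_ne_zero
  have h1 : DifferentiableAt ℂ (fun σ : ℂ => (Fintype.card (Qt M) : ℂ)⁻¹ *
      ∑ q : Qt M, ∏ i, jacobiTheta₂ ((co B M (Quotient.out q) i : ℂ) / d i) (σ / d i)) σ := by
    refine DifferentiableAt.const_mul ?_ _
    refine DifferentiableAt.fun_sum fun q _ => ?_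
    refine DifferentiableAt.fun_finsetProd fun i _ => ?_
    have : (0 : ℝ) < d i := by exact_mod_cast h.pos i
    have h3 : (σ / d i).im = σ.im / d i := by
      rw [← Complex.ofReal_intCast, Complex.div_ofReal_im]
    exact (differentiableAt_jacobiTheta₂_snd _ (by rw [h3]; exact div_pos hσ this)).comp σ
      (differentiableAt_id.div_const _)
  refine h1.congr_of_eventuallyEq ?_
  have h2 : ∀ᶠ z in nhds σ, 0 < z.im :=
    (isOpen_lt continuous_const Complex.continuous_im).mem_nhds hσ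
  filter_upwards [h2] with z hz
  rw [h.dual_sum hdet hz, ← mul_assoc, inv_mul_cancel₀ hc, one_mul]

theorem Dg.theta_I_ne (h : Dg B M d) : theta B I ≠ 0 := by
  have hs := (h.summable (τ := I) (by simp)).hasSum
  have h1 : ∀ x, term B I x = ((Real.exp (-(π * ((x ⬝ᵥ (B *ᵥ x) : ℤ) : ℝ))) : ℝ) : ℂ) := by
    intro x
    rw [term, ofReal_exp]
    congr 1
    push_cast
    linear_combination (π * ((x ⬝ᵥ (B *ᵥ x) : ℤ) : ℂ)) * I_mul_I
  have h2 := hasSum_re hs
  simp only [h1, ofReal_re] at h2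
  have h3 := h2.summable.tsum_pos (fun _ => (Real.exp_pos _).le) 0 (Real.exp_pos _)
  rw [h2.tsum_eq] at h3
  intro h0
  rw [theta] at h0
  simp only [h1] at h0
  rw [h0] at h3
  simp at h3

theorem Dg.theta_S {B M : Matrix (Fin 24) (Fin 24) ℤ} {d : Fin 24 → ℤ} (h : Dg B M d)
    (hdet : B.det = 1) (τ : ℂ) (hτ : 0 < τ.im) : theta B (-1 / τ) = τ ^ 12 * theta B τ := by
  obtain ⟨C, hC⟩ := h.theta_eq hdet
  have h1 : ∀ τ : ℂ, (1 / (-I * τ) ^ (1 / 2 : ℂ)) ^ 24 = 1 / τ ^ 12 := by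
    intro τ
    have h2 : ((-I * τ) ^ (1 / 2 : ℂ)) ^ 2 = -I * τ := by
      have := cpow_nat_inv_pow (-I * τ) (n := 2) two_ne_zero
      simpa using this
    rw [div_pow, one_pow, show 24 = 2 * 12 from rfl, pow_mul, h2, mul_pow, neg_pow,
      show 12 = 4 * 3 from rfl, pow_mul I, I_pow_four]
    norm_num
  have hI := hC I (by simp)
  have h3 : (-1 / I : ℂ) = I := by simp
  have h4 : (I : ℂ) ^ 12 = 1 := by rw [show 12 = 4 * 3 from rfl, pow_mul, I_pow_four, one_pow]
  rw [h1, h3, h4] at hI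
  have hC1 : C = 1 := by
    have := h.theta_I_ne
    apply mul_right_cancel₀ this
    linear_combination -hI
  have hτ0 : τ ≠ 0 := by rintro rfl; simp at hτ
  rw [hC τ hτ, h1, hC1]
  field_simp

end Cfsg.Agent.Block.Theta
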