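import Cfsg.Agent.Block.Theta2

/-! Theta series of an even unimodular lattice of rank 24 as a modular form. -/

namespace Cfsg.Agent.Block.Theta

open Matrix Complex Finset UpperHalfPlane ModularForm MatrixGroups EisensteinSeries
open scoped Real

variable {B M : Matrix (Fin 24) (Fin 24) ℤ} {d : Fin 24 → ℤ}

/-- the number of vectors of norm `2m` -/
noncomputable def cnt (B : Matrix (Fin 24) (Fin 24) ℤ) (m : ℕ) : ℕ :=
  {x : Fin 24 → ℤ | x ⬝ᵥ (B *ᵥ x) = 2 * m}.ncard

theorem hasSum_q (h : Dg B M d) (hpos : ∀ x : Fin 24 → ℤ, x ≠ 0 → 0 < x ⬝ᵥ (B *ᵥ x))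
    (heven : ∀ x : Fin 24 → ℤ, (2 : ℤ) ∣ x ⬝ᵥ (B *ᵥ x)) (τ : ℍ) :
    HasSum (fun m : ℕ => (cnt B m : ℂ) • Function.Periodic.qParam 1 τ ^ m) (theta B τ) := by
  have h0 : ∀ x : Fin 24 → ℤ, 0 ≤ x ⬝ᵥ (B *ᵥ x) := fun x => by
    by_cases hx : x = 0
    · simp [hx]
    · exact (hpos x hx).le
  have h1 := (h.summable τ.im_pos).hasSum.tsum_fiberwise
    (fun x : Fin 24 → ℤ => (x ⬝ᵥ (B *ᵥ x) / 2).toNat)
  have h2 : ∀ m : ℕ, (fun x : Fin 24 → ℤ => (x ⬝ᵥ (B *ᵥ x) / 2).toNat) ⁻¹' {m}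
      = {x : Fin 24 → ℤ | x ⬝ᵥ (B *ᵥ x) = 2 * m} := by
    intro m
    ext x
    have := h0 x
    have := heven x
    simp only [Set.mem_preimage, Set.mem_singleton_iff, Set.mem_ofPred_eq]
    omega
  have h3 : ∀ m : ℕ, ∑' b : ((fun x : Fin 24 → ℤ => (x ⬝ᵥ (B *ᵥ x) / 2).toNat) ⁻¹' {m}),
      term B τ b = (cnt B m : ℂ) • Function.Periodic.qParam 1 τ ^ m := by
    intro m
    rw [h2]
    have h4 : ∀ b : {x : Fin 24 → ℤ | x ⬝ᵥ (B *ᵥ x) = 2 * m},
        term B τ b = Function.Periodic.qParam 1 τ ^ m := by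
      rintro ⟨b, hb⟩
      have hb' : b ⬝ᵥ (B *ᵥ b) = 2 * m := hb
      simp only [term, hb', Function.Periodic.qParam, ← Complex.exp_nat_mul]
      congr 1
      push_cast
      ring
    simp only [h4, tsum_const, cnt]
    simp
  simp only [h3] at h1
  exact h1

theorem slash_S (h : Dg B M d) (hdet : B.det = 1) :
    ((fun τ : ℍ => theta B τ) ∣[(12 : ℤ)] ModularGroup.S) = fun τ : ℍ => theta B τ := by
  ext z
  rw [SlashInvariantForm.slash_S_apply]
  have := h.theta_S hdet z z.im_pos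
  simp only [coe_mk]
  rw [show (-(z : ℂ))⁻¹ = -1 / z by rw [inv_neg, neg_div, one_div], this, _root_.zpow_neg]
  have hz := z.ne_zero
  field_simp

set_option backward.isDefEq.respectTransparency.types false in
theorem slash_T (heven : ∀ x : Fin 24 → ℤ, (2 : ℤ) ∣ x ⬝ᵥ (B *ᵥ x)) :
    ((fun τ : ℍ => theta B τ) ∣[(12 : ℤ)] ModularGroup.T) = fun τ : ℍ => theta B τ := by
  ext z
  rw [SL_slash_apply, denom, modular_T_smul, ModularGroup.T]
  have : theta B (1 + z) = theta B z := by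
    unfold theta
    refine tsum_congr fun x => ?_
    obtain ⟨k, hk⟩ := heven x
    simp only [term, hk, mul_add, Complex.exp_add]
    rw [show (π * Complex.I * ((2 * k : ℤ) : ℂ) * 1) = 2 * π * Complex.I * k by push_cast; ring,
      exp_int, one_mul]
  simpa using this

/-- the theta series as a modular form -/
noncomputable def thetaMF (h : Dg B M d) (hdet : B.det = 1)
    (hpos : ∀ x : Fin 24 → ℤ, x ≠ 0 → 0 < x ⬝ᵥ (B *ᵥ x))
    (heven : ∀ x : Fin 24 → ℤ, (2 : ℤ) ∣ x ⬝ᵥ (B *ᵥ x)) : ModularForm 𝒮ℒ 12 where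
  toFun := fun τ : ℍ => theta B τ
  slash_action_eq' A hA := by
    obtain ⟨A, rfl⟩ := hA
    exact SlashInvariantForm.slash_action_generators_SL2Z (slash_S h hdet) (slash_T heven) A
  holo' := by
    rw [UpperHalfPlane.mdifferentiable_iff]
    refine .congr (fun z hz ↦ (h.diff hdet hz).differentiableWithinAt) fun z hz ↦ ?_
    simp [ofComplex_apply_of_im_pos hz]
  bdd_at_cusps' hc := by
    rw [Subgroup.IsArithmetic.isCusp_iff_isCusp_SL2Z] at hc
    rw [OnePoint.isBoundedAt_iff_forall_SL2Z hc]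
    intro γ _
    rw [SlashInvariantForm.slash_action_generators_SL2Z (slash_S h hdet) (slash_T heven)]
    exact isBoundedAtImInfty_of_hasSum_qExpansion one_pos (hasSum_q h hpos heven)

theorem E4c (m : ℕ) : (qExpansion 1 E₄).coeff m =
    if m = 0 then 1 else 240 * (ArithmeticFunction.sigma 3 m : ℂ) := by
  rw [E_qExpansion_coeff _ ⟨2, rfl⟩, show bernoulli 4 = -1 / 30 by decide +kernel]
  norm_num

theorem E6c (m : ℕ) : (qExpansion 1 E₆).coeff m =
    if m = 0 then 1 else -504 * (ArithmeticFunction.sigma 5 m : ℂ) := by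
  rw [E_qExpansion_coeff _ ⟨3, rfl⟩, show bernoulli 6 = 1 / 42 by decide +kernel]
  norm_num

theorem extremal (f : ModularForm 𝒮ℒ 12) (h0 : (qExpansion 1 f).coeff 0 = 1)
    (h1 : (qExpansion 1 f).coeff 1 = 0) :
    (qExpansion 1 f).coeff 2 = 196560 ∧ (qExpansion 1 f).coeff 3 = 16773120 ∧
      (qExpansion 1 f).coeff 4 = 398034000 := by
  let A : ModularForm 𝒮ℒ 12 := ModularForm.mcast (by decide) (E₄.pow 3)
  let C : ModularForm 𝒮ℒ 12 := ModularForm.mcast (by decide) (E₆.pow 2)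
  let g : ModularForm 𝒮ℒ 12 := f - ((7 / 12 : ℂ) • A + (5 / 12 : ℂ) • C)
  have hA : qExpansion 1 A = qExpansion 1 E₄ * qExpansion 1 E₄ * qExpansion 1 E₄ := by
    simp only [A, coe_mcast, ModularForm.qExpansion_pow one_pos one_mem_strictPeriods_SL]
    ring
  have hC : qExpansion 1 C = qExpansion 1 E₆ * qExpansion 1 E₆ := by
    simp only [C, coe_mcast, ModularForm.qExpansion_pow one_pos one_mem_strictPeriods_SL]
    ring
  have hg : qExpansion 1 g = qExpansion 1 f - ((7 / 12 : ℂ) • qExpansion 1 A +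
      (5 / 12 : ℂ) • qExpansion 1 C) := by
    have e1 := ModularForm.qExpansion_sub one_pos one_mem_strictPeriods_SL f
      ((7 / 12 : ℂ) • A + (5 / 12 : ℂ) • C)
    have e2 := ModularForm.qExpansion_add one_pos one_mem_strictPeriods_SL
      ((7 / 12 : ℂ) • A) ((5 / 12 : ℂ) • C)
    have e3 := ModularForm.qExpansion_smul one_pos one_mem_strictPeriods_SL (7 / 12 : ℂ) A
    have e4 := ModularForm.qExpansion_smul one_pos one_mem_strictPeriods_SL (5 / 12 : ℂ) C
    rw [← e3, ← e4]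
    exact e1.trans (congrArg _ e2)
  have s31 : ArithmeticFunction.sigma 3 1 = 1 := by decide
  have s32 : ArithmeticFunction.sigma 3 2 = 9 := by decide
  have s33 : ArithmeticFunction.sigma 3 3 = 28 := by decide
  have s34 : ArithmeticFunction.sigma 3 4 = 73 := by decide
  have s51 : ArithmeticFunction.sigma 5 1 = 1 := by decide
  have s52 : ArithmeticFunction.sigma 5 2 = 33 := by decide
  have s53 : ArithmeticFunction.sigma 5 3 = 244 := by decide
  have s54 : ArithmeticFunction.sigma 5 4 = 1057 := by decide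
  have a0 : (qExpansion 1 E₄).coeff 0 = 1 := by rw [E4c]; simp
  have a1 : (qExpansion 1 E₄).coeff 1 = 240 := by rw [E4c, s31]; norm_num
  have a2 : (qExpansion 1 E₄).coeff 2 = 2160 := by rw [E4c, s32]; norm_num
  have a3 : (qExpansion 1 E₄).coeff 3 = 6720 := by rw [E4c, s33]; norm_num
  have a4 : (qExpansion 1 E₄).coeff 4 = 17520 := by rw [E4c, s34]; norm_num
  have b0 : (qExpansion 1 E₆).coeff 0 = 1 := by rw [E6c]; simp
  have b1 : (qExpansion 1 E₆).coeff 1 = -504 := by rw [E6c, s51]; norm_num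
  have b2 : (qExpansion 1 E₆).coeff 2 = -16632 := by rw [E6c, s52]; norm_num
  have b3 : (qExpansion 1 E₆).coeff 3 = -122976 := by rw [E6c, s53]; norm_num
  have b4 : (qExpansion 1 E₆).coeff 4 = -532728 := by rw [E6c, s54]; norm_num
  have hc : ∀ m, (qExpansion 1 g).coeff m = (qExpansion 1 f).coeff m -
      (7 / 12 * (qExpansion 1 E₄ * qExpansion 1 E₄ * qExpansion 1 E₄).coeff m +
        5 / 12 * (qExpansion 1 E₆ * qExpansion 1 E₆).coeff m) := by
    intro m
    rw [hg, hA, hC]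
    simp
  generalize qExpansion 1 E₄ = P at *
  generalize qExpansion 1 E₆ = R at *
  have hz : g = 0 := by
    apply ModularForm.sturm_bound_levelOne
    have : ((2 : ℕ) : ℕ∞) ≤ (qExpansion 1 g).order := by
      apply PowerSeries.nat_le_order
      intro i hi
      rw [hc]
      interval_cases i
      · rw [h0]
        norm_num [PowerSeries.coeff_mul, Finset.Nat.antidiagonal_succ, a0, b0,
          -PowerSeries.coeff_zero_eq_constantCoeff]
      · rw [h1]
        norm_num [PowerSeries.coeff_mul, Finset.Nat.antidiagonal_succ, a0, b0, a1, b1,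
          -PowerSeries.coeff_zero_eq_constantCoeff]
    refine lt_of_lt_of_le ?_ this
    exact_mod_cast (by decide : Int.toNat 12 / 12 < 2)
  have hz' : ∀ m, (qExpansion 1 f).coeff m =
      (7 / 12 * (P * P * P).coeff m + 5 / 12 * (R * R).coeff m) := by
    intro m
    have := hc m
    rw [hz] at this
    simp only [FunLike.coe_zero, qExpansion_zero, map_zero] at this
    exact (sub_eq_zero.1 this.symm)
  refine ⟨?_, ?_, ?_⟩ <;> rw [hz'] <;>
    norm_num [PowerSeries.coeff_mul, Finset.Nat.antidiagonal_succ, a0, b0, a1, b1, a2, b2, a3, b3,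
      a4, b4, -PowerSeries.coeff_zero_eq_constantCoeff]

theorem counts (B : Matrix (Fin 24) (Fin 24) ℤ) (hsymm : B.IsSymm)
    (hpos : ∀ x : Fin 24 → ℤ, x ≠ 0 → 0 < x ⬝ᵥ (B *ᵥ x))
    (heven : ∀ x : Fin 24 → ℤ, (2 : ℤ) ∣ x ⬝ᵥ (B *ᵥ x)) (hdet : B.det = 1)
    (h2 : ∀ x : Fin 24 → ℤ, x ⬝ᵥ (B *ᵥ x) ≠ 2) :
    {x : Fin 24 → ℤ | x ⬝ᵥ (B *ᵥ x) = 4}.ncard = 196560 ∧
      {x : Fin 24 → ℤ | x ⬝ᵥ (B *ᵥ x) = 6}.ncard = 16773120 ∧
      {x : Fin 24 → ℤ | x ⬝ᵥ (B *ᵥ x) = 8}.ncard = 398034000 := by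
  obtain ⟨M, d, hd, hM⟩ := exists_diag B hsymm hpos
  have h : Dg B M d := ⟨hsymm, hd, hM⟩
  have hq : ∀ m, (cnt B m : ℂ) = (qExpansion 1 (thetaMF h hdet hpos heven)).coeff m :=
    ModularFormClass.qExpansion_coeff_unique one_pos one_mem_strictPeriods_SL
      (f := thetaMF h hdet hpos heven) (hasSum_q h hpos heven)
  have c0 : cnt B 0 = 1 := by
    rw [cnt, Set.ncard_eq_one]
    refine ⟨0, ?_⟩
    ext x
    simp only [Set.mem_ofPred_eq, Set.mem_singleton_iff]
    constructor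
    · intro hx
      by_contra h0
      have := hpos x h0
      simp [hx] at this
    · rintro rfl; simp
  have c1 : cnt B 1 = 0 := by
    have : {x : Fin 24 → ℤ | x ⬝ᵥ (B *ᵥ x) = 2 * (1 : ℕ)} = ∅ := by
      ext x
      simpa using h2 x
    rw [cnt, this, Set.ncard_empty]
  obtain ⟨e2, e3, e4⟩ := extremal (thetaMF h hdet hpos heven) (by rw [← hq, c0]; simp)
    (by rw [← hq, c1]; simp)
  rw [← hq] at e2 e3 e4
  refine ⟨?_, ?_, ?_⟩
  · exact_mod_cast e2
  · exact_mod_cast e3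
  · exact_mod_cast e4

end Cfsg.Agent.Block.Theta
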