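import Mathlib
import Cfsg.Agent.Block.LocSys2
import Cfsg.Agent.Block.Nilp

/-!
Watanabe's theorem on blocks with abelian defect groups.
-/

set_option autoImplicit false

namespace Cfsg.Agent.Block

open Cfsg Cfsg.Agent.Char MonoidAlgebra Subgroup
open Cfsg.Agent.LocalEven hiding isPGroup_zpowers_of_orderOf
open scoped ComplexConjugate

section Fourier

variable {P : Type*} [Group P] [Fintype P] {N : Subgroup P}

theorem sum_linAnn_eq_zero (hN : commutator P ≤ N) [Fintype (linAnn N)] {v : P} (hv : v ∉ N) :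
    ∑ l : linAnn N, ((l.1 v : ℂˣ) : ℂ) = 0 := by
  let f : linAnn N →* ℂ :=
    { toFun := fun l => (l.1 v : ℂˣ)
      map_one' := rfl
      map_mul' := fun _ _ => rfl }
  refine sum_hom_units_eq_zero f fun e => hv ?_
  have h1 : linAnn N ≤ linAnn (N ⊔ zpowers v) := fun l hl => by
    have h2 : N ⊔ zpowers v ≤ l.ker := sup_le (fun n hn => mem_linAnn.1 hl n hn)
      (zpowers_le.2 (Units.ext (DFunLike.congr_fun e ⟨l, hl⟩)))
    exact mem_linAnn.2 h2
  have h2 := card_le_of_le h1
  rw [card_linAnn hN, card_linAnn (hN.trans le_sup_left)] at h2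
  have h3 := relIndex_mul_index (le_sup_left : N ≤ N ⊔ zpowers v)
  have h4 : 0 < (N ⊔ zpowers v).index := Nat.pos_of_ne_zero index_ne_zero_of_finite
  have h5 : 0 < N.relIndex (N ⊔ zpowers v) := Nat.pos_of_ne_zero index_ne_zero_of_finite
  have h6 : N.relIndex (N ⊔ zpowers v) = 1 := by nlinarith
  exact relIndex_eq_one.1 h6 (mem_sup_right (mem_zpowers v))

theorem sum_coset_eq_of_linAnn (hN : commutator P ≤ N) [Fintype N] {w : P → ℂ}
    (h : ∀ l : linAnn N, l ≠ 1 → ∑ v, ((l.1 v : ℂˣ) : ℂ) * w v = 0) (z : P) :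
    ∑ n : N, w (z * n) = ∑ n : N, w n := by
  classical
  have := Fintype.ofFinite (linAnn N)
  have key : ∀ z : P, (Fintype.card (linAnn N) : ℂ) * ∑ n : N, w (z * n) = ∑ v, w v := fun z => by
    have h1 : ∑ l : linAnn N, ((l.1 z⁻¹ : ℂˣ) : ℂ) * ∑ v, ((l.1 v : ℂˣ) : ℂ) * w v = ∑ v, w v := by
      rw [Finset.sum_eq_single 1 (fun l _ hl => by rw [h l hl, mul_zero]) (by simp)]
      simp
    rw [← h1]
    simp_rw [Finset.mul_sum]
    rw [Finset.sum_comm, ← Equiv.sum_comp (Equiv.mulLeft z),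
      ← Finset.sum_subtype (Finset.univ.filter (· ∈ N)) (by simp)
        fun x => (Fintype.card (linAnn N) : ℂ) * w (z * x), Finset.sum_filter]
    refine Finset.sum_congr rfl fun x _ => ?_
    simp_rw [← mul_assoc, ← Units.val_mul, ← map_mul, Equiv.coe_mulLeft, inv_mul_cancel_left]
    rw [← Finset.sum_mul]
    split_ifs with hx
    · rw [Finset.sum_congr rfl fun l _ => congrArg Units.val (mem_linAnn.1 l.2 x hx)]
      simp
    · rw [sum_linAnn_eq_zero hN hx, zero_mul]
  have h0 : (Fintype.card (linAnn N) : ℂ) ≠ 0 := Nat.cast_ne_zero.2 Fintype.card_ne_zero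
  refine mul_left_cancel₀ h0 ((key z).trans ?_)
  rw [← key 1]
  simp

end Fourier

theorem exists_foc_ker {A : Type*} [Group A] [Finite A] (hc : IsMulCommutative A)
    (E : Subgroup (MulAut A)) (h : (Nat.card A).Coprime (Nat.card E)) :
    ∃ N : Subgroup A, (∀ α ∈ E, ∀ v, v⁻¹ * α v ∈ N) ∧ ∀ v ∈ N, (∀ α ∈ E, α v = v) → v = 1 := by
  letI : CommGroup A := { (inferInstance : Group A) with mul_comm := hc.1.1 }
  have := Fintype.ofFinite E
  let φ : A →* A :=
    { toFun := fun v => ∏ α : E, α.1 v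
      map_one' := by simp
      map_mul' := fun x y => by simp [Finset.prod_mul_distrib] }
  refine ⟨φ.ker, fun α hα v => ?_, fun v hv h1 => ?_⟩
  · rw [MonoidHom.mem_ker, map_mul, map_inv, inv_mul_eq_one]
    exact (Equiv.prod_comp (Equiv.mulRight (⟨α, hα⟩ : E)) fun β : E => β.1 v).symm
  · have h2 : ∏ α : E, α.1 v = 1 := hv
    rw [Finset.prod_congr rfl fun α _ => h1 α.1 α.2, Finset.prod_const, Finset.card_univ,
      ← Nat.card_eq_fintype_card] at h2
    exact orderOf_eq_one_iff.1 (Nat.eq_one_of_dvd_coprimes h (orderOf_dvd_natCard v)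
      (orderOf_dvd_of_pow_eq_one h2))

universe u

section

variable {G : Type*} [Group G] [Finite G] {p : ℕ} {M : Ideal AlgInt} {B : Set (IrrCharacter G)}
  {a c d : BrauerPairIdx G} {X : Finset d.1}

theorem blockRank_subAt_stabAct (hM : IsPModular p M) (hd : IsBP p M d)
    (t : MulAction.stabilizer G d) (v : d.1) :
    blockRank p (subAt p M d (t • v : d.1)).a.2 = blockRank p (subAt p M d v).a.2 := by
  rw [subAt_stabAct hM hd, Subs.smul_a, pair_smul_def, conjBlock_eq, blockRank_compSet]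

/-- The number of elements of the stabilizer of `d` centralizing `v`. -/
noncomputable def stw (d : BrauerPairIdx G) (v : G) : ℕ :=
  Nat.card (MulAction.stabilizer G d ⊓ centralizer {v} : Subgroup G)

theorem card_stabilizer_stabAct (v : d.1) :
    Nat.card (MulAction.stabilizer (MulAction.stabilizer G d) v) = stw d v := by
  rw [stabilizer_stabAct, ← inf_subgroupOf_left, card_subgroupOf inf_le_left, stw]

theorem FReps.sum_stw [Fintype d.1] (hM : IsPModular p M) (hd : IsMaxBP p M B d)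
    (hab : d.1 ≤ centralizer (d.1 : Set G)) (h : FReps p M d X) {A : Type*} [CommSemiring A]
    {F : d.1 → A} (hF : ∀ (t : MulAction.stabilizer G d) (v : d.1), F (t • v) = F v) :
    ∑ v : d.1, (stw d v : A) * F v = Nat.card (MulAction.stabilizer G d) * ∑ v ∈ X, F v := by
  rw [← (h.isReps_of_abelian hM hd hab).sum_eq fun r _ t => hF t r]
  simp_rw [card_stabilizer_stabAct]

theorem IsMaxBP.card_mul_eq_sum_stw [Fintype d.1] (hM : IsPModular p M) (hd : IsMaxBP p M B d)
    (hab : d.1 ≤ centralizer (d.1 : Set G)) :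
    Nat.card (MulAction.stabilizer G d) * Nat.card B =
      ∑ v : d.1, stw d v * blockRank p (subAt p M d v).a.2 := by
  obtain ⟨X, hX⟩ := exists_fReps p M d
  rw [hX.card_eq_sum hM hd]
  exact (hX.sum_stw (A := ℕ) hM hd hab (blockRank_subAt_stabAct hM hd.bp)).symm

theorem IsMaxBP.sum_lin_stw [Fintype d.1] (hM : IsPModular p M) (hd : IsMaxBP p M B d)
    (hab : d.1 ≤ centralizer (d.1 : Set G)) {N : Subgroup d.1} (hN : FocLe p M d N)
    (l : linAnn N) (hl : l ≠ 1) :
    ∑ v : d.1, ((l.1 v : ℂˣ) : ℂ) * (stw d v * blockRank p (subAt p M d v).a.2 : ℕ) = 0 := by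
  classical
  have := Fintype.ofFinite G
  letI := linAct hM hd hN
  obtain ⟨X, hX⟩ := exists_fReps p M d
  have h1 : ∀ χ ∈ B, ∑ v ∈ X, ((l.1 v : ℂˣ) : ℂ) * con p χ χ (subAt p M d v) = 0 := fun χ hχ => by
    rw [← hX.inner_bstar hM hd (hN.stable l) hχ (isIrr_isGenChar χ.2),
      ← coe_linAct hM hd hN l ⟨χ, hχ⟩]
    refine classInner_irr_ne fun e => hl (Subtype.ext (MonoidHom.ext fun v => ?_))
    exact mem_linAnn.1 (linAct_stabilizer_le hM hd hN ⟨χ, hχ⟩ (Subtype.ext e)) v
      (mem_sup_right (mem_center_iff.2 fun g => Subtype.ext (hab v.2 g g.2)))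
  have h2 := Finset.sum_eq_zero (s := Finset.univ.filter (· ∈ B)) fun χ hχ =>
    h1 χ (Finset.mem_filter.1 hχ).2
  rw [Finset.sum_comm] at h2
  simp_rw [← Finset.mul_sum] at h2
  rw [Finset.sum_congr rfl fun v _ => by
    rw [sum_con_self_block hM (subAt_ok hM hd.bp v.2) (subAt_isBPOf hM hd.of v.2)]] at h2
  have h3 := hX.sum_stw hM hd hab
    (F := fun v => ((l.1 v : ℂˣ) : ℂ) * blockRank p (subAt p M d v).a.2) fun t v => by
      rw [blockRank_subAt_stabAct hM hd.bp]
      exact congrArg (· * _) (hN.stable l v (t • v) t (subAt_stabAct hM hd.bp t v).symm)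
  rw [h2, mul_zero] at h3
  rw [← h3]
  exact Finset.sum_congr rfl fun v _ => by push_cast; ring

theorem IsMaxBP.exists_focLe (hM : IsPModular p M) (hd : IsMaxBP p M B d)
    (hab : d.1 ≤ centralizer (d.1 : Set G)) : ∃ N : Subgroup d.1, FocLe p M d N ∧
      ∀ v ∈ N, MulAction.stabilizer G d ≤ centralizer {(v : G)} → v = 1 := by
  obtain ⟨N, h1, h2⟩ := exists_foc_ker (isMulCommutative_of_le_centralizer hab) (inert d) (by
    have := Fact.mk hM.1
    obtain ⟨n, hn⟩ := IsPGroup.iff_card.1 hd.bp.1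
    rw [hn, card_inert]
    exact ((hM.1.coprime_iff_not_dvd.2 (hd.not_dvd_of_abelian hM hab)).pow_left n))
  refine ⟨N, fun u v x e => ?_, fun v hv h => h2 v hv ?_⟩
  · obtain ⟨t, rfl⟩ := hd.exists_stabAct hM (hab u.2) (hab v.2) e
    exact h1 _ ⟨t, rfl⟩ u
  · rintro _ ⟨t, rfl⟩
    exact Subtype.ext (mul_inv_eq_iff_eq_mul.2 (mem_centralizer_singleton_iff.1 (h t.2)))

theorem Lift.blockRank_eq {H : Subgroup G} {b : BrauerPairIdx H} (h : Lift H b c) :
    blockRank p c.2 = blockRank p b.2 := by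
  obtain ⟨e, -, h⟩ := h
  rw [h, blockRank_compSet]

theorem Lift.rank_subAt (hM : IsPModular p M) (hd : IsBP p M d)
    (hab : d.1 ≤ centralizer (d.1 : Set G)) (ha : PLe p M a d)
    {d' : BrauerPairIdx (centralizer (a.1 : Set G))} (h1 : d'.1 = d.1.subgroupOf _)
    (h2 : Lift _ d' d) (h3 : IsBPOf p M a.2 d') {u : centralizer (a.1 : Set G)} (hu : u ∈ d'.1)
    (hc : PLe p M c d) (e : c.1 = a.1 ⊔ zpowers (u : G)) :
    blockRank p c.2 = blockRank p (subAt p M d' u).a.2 := by
  obtain ⟨c', c1, c2, c3⟩ := exists_lift_le hM hd hab ha h1 h2 h3 (subAt_le hM h3.bp hu)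
  rw [(subAt_spec hM h3.bp hu).1, MonoidHom.map_zpowers] at c1
  rw [← c2.blockRank_eq, ple_unique hM hd hc c3 (e.trans c1.symm)]

end

/-- The statement of Watanabe's theorem for the number of Brauer characters. -/
def WatRank (p : ℕ) (M : Ideal AlgInt) (G : Type*) [Group G] [Finite G] : Prop :=
  ∀ (B : Set (IrrCharacter G)) (d : BrauerPairIdx G), IsMaxBP p M B d →
    d.1 ≤ centralizer (d.1 : Set G) → ∀ u ∈ d.1, MulAction.stabilizer G d ≤ centralizer {u} →
      blockRank p (subAt p M d u).a.2 = blockRank p B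

variable {p : ℕ} {M : Ideal AlgInt}

theorem WatRank.local {G : Type*} [Group G] [Finite G] {B : Set (IrrCharacter G)}
    {a c d : BrauerPairIdx G} (hM : IsPModular p M) (h : WatRank p M (centralizer (a.1 : Set G)))
    (hd : IsMaxBP p M B d) (hab : d.1 ≤ centralizer (d.1 : Set G)) (ha : PLe p M a d) {u : G}
    (hu : u ∈ d.1) (hT : MulAction.stabilizer G d ⊓ centralizer (a.1 : Set G) ≤ centralizer {u})
    (hc : PLe p M c d) (e : c.1 = a.1 ⊔ zpowers u) : blockRank p c.2 = blockRank p a.2 := by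
  have hC : d.1 ≤ centralizer (a.1 : Set G) := hab.trans (centralizer_le ha.le)
  obtain ⟨d', h1, h2, h3⟩ := hd.exists_local_max hM ha hC
  have hu' : (⟨u, hC hu⟩ : centralizer (a.1 : Set G)) ∈ d'.1 := h1 ▸ hu
  rw [h2.rank_subAt hM hd.bp hab ha h1 h3.of hu' hc e]
  refine h _ d' h3 (fun x hx => h2.mem_centralizer.1 (hab (h1 ▸ hx :))) _ hu' fun t ht => ?_
  rw [h2.stabilizer_eq hC h1] at ht
  exact mem_centralizer_singleton_iff.2
    (Subtype.ext (mem_centralizer_singleton_iff.1 (hT ⟨ht, t.2⟩)))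

theorem watRank (hM : IsPModular p M) (G : Type u) [Group G] [Finite G] : WatRank p M G := by
  classical
  induction hn : Nat.card G using Nat.strong_induction_on generalizing G with
  | _ n ih =>
  intro B d hd hab z hz hT
  have := Fintype.ofFinite d.1
  obtain ⟨N, hN, hN1⟩ := hd.exists_focLe hM hab
  have := Fintype.ofFinite N
  have h1 := sum_coset_eq_of_linAnn (hN.commutator_le hM hd.bp) (hd.sum_lin_stw hM hab hN) ⟨z, hz⟩
  have h2 : ∀ n : G, MulAction.stabilizer G d ⊓ centralizer {z * n} =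
      MulAction.stabilizer G d ⊓ centralizer {n} := fun n => Subgroup.ext fun t =>
    and_congr_right fun ht => by
      have h3 := mem_centralizer_singleton_iff.1 (hT ht)
      change t ∈ centralizer {z * n} ↔ t ∈ centralizer {n}
      rw [mem_centralizer_singleton_iff,
        mem_centralizer_singleton_iff, ← mul_assoc, h3, mul_assoc, mul_assoc, mul_right_inj]
  have h3 : ∀ v ∈ d.1, ¬ MulAction.stabilizer G d ≤ centralizer {v} → ∀ c, PLe p M c d →
      c.1 = zpowers v ⊔ zpowers z → blockRank p c.2 = blockRank p (subAt p M d v).a.2 :=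
    fun v hv h c hc e => by
      have h4 := subAt_spec hM hd.bp hv
      refine WatRank.local hM (ih _ ?_ _ rfl) hd hab h4.2 hz (inf_le_left.trans hT) hc
        (h4.1 ▸ e)
      rw [← hn, ← (subAt_ok hM hd.bp hv).cent, subAt_u]
      exact Core.card_lt_of_ne_top _ fun e => h (e ▸ le_top)
  have h4 : ∀ n : N, n ≠ 1 → blockRank p (subAt p M d (z * n)).a.2 =
      blockRank p (subAt p M d n).a.2 := fun n hn => by
    have h5 : ¬ MulAction.stabilizer G d ≤ centralizer {((n : d.1) : G)} := fun h =>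
      hn (Subtype.ext (hN1 n n.2 h))
    obtain ⟨c, c1, c2⟩ := exists_ple hM hd.bp (Q := zpowers ((n : d.1) : G) ⊔ zpowers z)
      (sup_le (zpowers_le.2 n.1.2) (zpowers_le.2 hz))
    rw [← h3 _ n.1.2 h5 c c2 c1]
    refine (h3 _ (mul_mem hz n.1.2) (fun h => h5 ?_) c c2 (c1.trans ?_)).symm
    · rw [← inf_eq_left] at h ⊢
      rw [← h2, h]
    · refine le_antisymm (sup_le (zpowers_le.2 ?_) le_sup_right)
        (sup_le (zpowers_le.2 ?_) le_sup_right)
      · have := mul_mem (inv_mem (mem_sup_right (mem_zpowers z)))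
          (mem_sup_left (T := zpowers z) (mem_zpowers (z * n)))
        rwa [inv_mul_cancel_left] at this
      · exact mul_mem (mem_sup_right (mem_zpowers z)) (mem_sup_left (mem_zpowers _))
  rw [← Finset.add_sum_erase _ _ (Finset.mem_univ 1), ← Finset.add_sum_erase _ _ (Finset.mem_univ 1),
    Finset.sum_congr rfl fun n hn => by
      rw [coe_mul, h4 n (Finset.ne_of_mem_erase hn), stw, h2, ← stw]] at h1
  have h5 : stw d (z * 1) * blockRank p (subAt p M d (z * 1)).a.2 =
      stw d 1 * blockRank p (subAt p M d 1).a.2 := Nat.cast_injective (add_right_cancel h1)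
  rw [stw, h2, ← stw, mul_one, (blockDefect_of_fst_eq_bot hM
    (subAt_isBPOf hM hd.of (one_mem _)) (by simp [(subAt_spec hM hd.bp (one_mem _)).1])).2.1] at h5
  exact Nat.eq_of_mul_eq_mul_left Nat.card_pos h5

theorem IsMaxBP.watanabe {G : Type*} [Group G] [Finite G] {B : Set (IrrCharacter G)}
    {d : BrauerPairIdx G} (hM : IsPModular p M) (hd : IsMaxBP p M B d)
    (hab : d.1 ≤ centralizer (d.1 : Set G)) {u : G} (hu : u ∈ d.1)
    (hT : MulAction.stabilizer G d ≤ centralizer {u}) :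
    blockRank p (subAt p M d u).a.2 = blockRank p B ∧
      Nat.card (subAt p M d u).a.2 = Nat.card B := by
  refine ⟨watRank hM G B d hd hab u hu hT, ?_⟩
  have ha := subAt_spec hM hd.bp hu
  have h0 : centralizer {u} = centralizer ((subAt p M d u).a.1 : Set G) :=
    (subAt_ok hM hd.bp hu).cent
  generalize (subAt p M d u).a = a at ha h0
  have hC : d.1 ≤ centralizer (a.1 : Set G) := hab.trans (centralizer_le ha.2.le)
  obtain ⟨d', h1, h2, h3⟩ := hd.exists_local_max hM ha.2 hC
  have := Fintype.ofFinite d.1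
  have := Fintype.ofFinite d'.1
  have h4 := hd.card_mul_eq_sum_stw hM hab
  have h5 := h3.card_mul_eq_sum_stw hM fun x hx => h2.mem_centralizer.1 (hab (h1 ▸ hx :))
  have h6 := h2.stabilizer_eq hC h1
  rw [h6, card_subgroupOf (h0 ▸ hT)] at h5
  refine Nat.eq_of_mul_eq_mul_left Nat.card_pos (h5.trans (Eq.trans ?_ h4.symm))
  let e : d'.1 ≃* d.1 := (MulEquiv.subgroupCongr h1).trans (subgroupOfEquivOfLe hC)
  refine Fintype.sum_equiv e.toEquiv _ _ fun v => ?_
  have hv : ((v : centralizer (a.1 : Set G)) : G) ∈ d.1 := (e v).2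
  change _ = stw d v * blockRank p (subAt p M d v).a.2
  obtain ⟨c, c1, c2⟩ := exists_ple hM hd.bp (Q := a.1 ⊔ zpowers ((v : centralizer (a.1 : Set G)) : G))
    (sup_le ha.2.le (zpowers_le.2 hv))
  have h7 := subAt_spec hM hd.bp hv
  rw [← h2.rank_subAt hM hd.bp hab ha.2 h1 h3.of v.2 c2 c1, (watRank hM _).local hM hd hab h7.2 hu
    (inf_le_left.trans hT) c2 (by rw [c1, h7.1, sup_comm, ← ha.1]), stw, stw, h6,
    ← card_subgroupOf ((inf_le_left (a := MulAction.stabilizer G d)).trans (h0 ▸ hT))]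
  congr 3
  ext t
  simp only [mem_inf, mem_subgroupOf, mem_centralizer_singleton_iff, Subtype.ext_iff, coe_mul]

end Cfsg.Agent.Block
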